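import Cfsg.Agent.Lib.GTwoTwo.Data
import Mathlib

/-!
Facts about the tables, by evaluation.
-/

set_option autoImplicit false
set_option synthInstance.maxSize 2000
set_option maxRecDepth 4000

namespace CfsgLib.GTwoTwo.Data

/-- The number of automorphisms fixing a point. -/
def fixCount (x : ℕ) : ℕ := ((List.range 16).filter fun k => hap k x == x).length

theorem hm_lt : ∀ p < 27, ∀ q < 27, hm p q < 27 := by decide +kernel

theorem hm_hi : ∀ p < 27, hm (hi p) p = 0 ∧ hm p (hi p) = 0 ∧ hi p < 27 ∧ hm 0 p = p ∧ hm p 0 = p := by decide +kernel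

theorem hap_lt : ∀ k < 16, (∀ x < 27, hap k x < 27) ∧ hap k 27 = 27 ∧ hap k 0 = 0 := by decide +kernel

theorem hap_hom : ∀ k < 16, ∀ p < 27, ∀ q < 27, hap k (hm p q) = hm (hap k p) (hap k q) := by decide +kernel

theorem hap_comp : ∀ k < 16, ∀ l < 16, ∃ m < 16, ∀ x < 28, hap k (hap l x) = hap m x := by decide +kernel

theorem hap_inv : ∀ k < 16, ∃ l < 16, ∀ x < 28, hap k (hap l x) = x ∧ hap l (hap k x) = x := by decide +kernel

theorem hap_zero : ∀ x < 28, hap 0 x = x := by decide +kernel

theorem hap_distinct : ∀ k < 16, ∀ l < 16, hap k 9 = hap l 9 → hap k 3 = hap l 3 → k = l := by decide +kernel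

theorem hap_pow : ∀ k < 16, ∀ x < 28, hap k x = (hap 1)^[k % 8] ((hap 8)^[k / 8] x) := by decide +kernel

theorem hap_order_eight : ∀ k < 16, (∃ x < 28, (hap k)^[4] x ≠ x) →
    k ∈ ([1, 3, 5, 7] : List ℕ) ∧ ∀ x < 28, (hap k)^[4] x = hap 4 x := by decide +kernel

theorem hap_four : (∃ x < 28, (hap 1)^[4] x ≠ x) ∧ (∀ x < 28, (hap 1)^[4] x = hap 4 x) ∧
    (∀ x < 28, hap 8 (hap 8 x) = x) := by decide +kernel

theorem hap_involution : ∀ k < 16, (∀ x < 28, hap k (hap k x) = x) → k ≠ 0 → k ≠ 4 →
    k ∈ ([8, 10, 12, 14] : List ℕ) := by decide +kernel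

theorem wit_spec : ∀ x < 27, x ≠ 0 → (wit.getD x (0, 0)).1 < 3 ∧ (wit.getD x (0, 0)).2 < 16 ∧
    hap (wit.getD x (0, 0)).2 (reps.getD (wit.getD x (0, 0)).1 0) = x := by decide +kernel

theorem reps_mem : ∀ o < 3, reps.getD o 0 ∈ orbs.getD o [] := by decide +kernel

theorem orbs_spec : ∀ o < 3, ∀ x ∈ orbs.getD o [], x < 27 ∧ x ≠ 0 ∧ (wit.getD x (0, 0)).1 = o := by decide +kernel

theorem orbs_fixCount : ∀ o < 3, ∀ x < 27, x ≠ 0 → fixCount x = fixCount (reps.getD o 0) →
    x ∈ orbs.getD o [] := by decide +kernel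

theorem fixCount_orbs : ∀ o < 3, ∀ x ∈ orbs.getD o [], fixCount x = fixCount (reps.getD o 0) := by decide +kernel

theorem check_all : ∀ gi ∈ ([1, 3, 5, 7] : List ℕ), ∀ ri ∈ ([8, 10, 12, 14] : List ℕ), check gi ri = true := by
  decide +kernel

theorem look_tau0_lt : ∀ x < 28, look tau0 x < 28 := by decide +kernel

/-- The lookup of a stored map. -/
theorem look_store (f : ℕ → ℕ) (hf : ∀ x < 28, f x < 32) (x : ℕ) (hx : x < 28) : look (store f) x = f x := by
  have key : ∀ (l : List ℕ), (∀ y ∈ l, f y < 32) → ∀ i, (h : i < l.length) →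
      look (l.foldr (fun y acc => f y + 32 * acc) 0) i = f l[i] := by
    intro l
    induction l with
    | nil => intro _ i h; simp at h
    | cons y l ih =>
      intro hl i h
      have hy := hl y (List.mem_cons_self ..)
      simp only [List.foldr_cons]
      rcases i with _ | i
      · rw [look, Nat.mul_zero, Nat.shiftRight_zero, Nat.and_two_pow_sub_one_eq_mod _ 5]
        simp only [List.getElem_cons_zero]
        omega
      · have h2 := ih (fun z hz => hl z (List.mem_cons_of_mem _ hz)) i (by simpa using h)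
        simp only [List.getElem_cons_succ]
        rw [← h2]
        rw [look, look, show 5 * (i + 1) = 5 + 5 * i by ring, Nat.shiftRight_add]
        congr 2
        rw [Nat.shiftRight_eq_div_pow]
        omega
  have h := key (List.range 28) (fun y hy => hf y (List.mem_range.1 hy)) x (by simpa using hx)
  simpa [store] using h

end CfsgLib.GTwoTwo.Data
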