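import Cfsg.Agent.Lib.GTwoTwo.Heis
import Cfsg.Agent.Lib.GTwoTwo.Tables

/-!
Coordinates adapted to a subgroup of order 16 of the automorphisms of a non-abelian group of order 27 and
exponent 3.
-/

set_option autoImplicit false
set_option linter.style.haveILetI false

open Subgroup

namespace CfsgLib.GTwoTwo.Heis

universe u

open CfsgLib.GTwoTwo.Data (hm hap)

variable {K : Type u} [Group K]

/-- Coordinates for a group of order 27. -/
structure Coord (K : Type u) [Group K] where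
  f : ℕ → K
  zero : f 0 = 1
  mul : ∀ p < 27, ∀ q < 27, f (hm p q) = f p * f q
  inj : ∀ p < 27, ∀ q < 27, f p = f q → p = q
  surj : ∀ x : K, ∃ p < 27, f p = x

theorem Coord.noncomm (c : Coord K) : c.f 9 * c.f 3 ≠ c.f 3 * c.f 9 := by
  rw [← c.mul 9 (by norm_num) 3 (by norm_num), ← c.mul 3 (by norm_num) 9 (by norm_num)]
  intro h
  have := c.inj _ (Data.hm_lt 9 (by norm_num) 3 (by norm_num)) _ (Data.hm_lt 3 (by norm_num) 9 (by norm_num)) h
  revert this
  decide

theorem word_spec : (hm (Data.hi (hm 3 9)) (hm 9 3) = 1) ∧ ∀ p < 27,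
    p = hm (hm ([0, 3, hm 3 3].getD (p / 3 % 3) 0) ([0, 9, hm 9 9].getD (p / 9) 0)) ([0, 1, hm 1 1].getD (p % 3) 0) := by
  decide +kernel

/-- Homomorphisms agreeing on the two generators agree. -/
theorem Coord.hom_ext (c : Coord K) (σ τ : MulAut K) (h9 : σ (c.f 9) = τ (c.f 9)) (h3 : σ (c.f 3) = τ (c.f 3)) :
    σ = τ := by
  let E : Subgroup K :=
    { carrier := {a | σ a = τ a}
      one_mem' := by show σ 1 = τ 1; rw [map_one, map_one]
      mul_mem' := fun {a b} ha hb => by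
        show σ (a * b) = τ (a * b)
        rw [map_mul, map_mul, show σ a = τ a from ha, show σ b = τ b from hb]
      inv_mem' := fun {a} ha => by
        show σ a⁻¹ = τ a⁻¹
        rw [map_inv, map_inv, show σ a = τ a from ha] }
  have hmem : ∀ p < 27, ∀ q < 27, c.f p ∈ E → c.f q ∈ E → c.f (hm p q) ∈ E := fun p hp q hq h h' => by
    rw [c.mul p hp q hq]; exact mul_mem h h'
  have e9 : c.f 9 ∈ E := h9
  have e3 : c.f 3 ∈ E := h3
  have e1 : c.f 1 ∈ E := by
    obtain ⟨h, -⟩ := word_spec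
    rw [← h, c.mul _ (Data.hm_hi _ (Data.hm_lt 3 (by norm_num) 9 (by norm_num))).2.2.1 _
      (Data.hm_lt 9 (by norm_num) 3 (by norm_num))]
    refine mul_mem ?_ (hmem 9 (by norm_num) 3 (by norm_num) e9 e3)
    have h' := hmem 3 (by norm_num) 9 (by norm_num) e3 e9
    have hl := Data.hm_lt 3 (by norm_num) 9 (by norm_num)
    have e : c.f (Data.hi (hm 3 9)) = (c.f (hm 3 9))⁻¹ := by
      refine eq_inv_of_mul_eq_one_left ?_
      rw [← c.mul _ (Data.hm_hi _ hl).2.2.1 _ hl, (Data.hm_hi _ hl).1, c.zero]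
    rw [e]
    exact inv_mem h'
  have hlist : ∀ g < 27, c.f g ∈ E → ∀ i, ([0, g, hm g g].getD i 0 < 27 ∧ c.f ([0, g, hm g g].getD i 0) ∈ E) := by
    intro g hg h i
    have h0 : c.f 0 ∈ E := by rw [c.zero]; exact one_mem E
    match i with
    | 0 => exact ⟨by norm_num, h0⟩
    | 1 => exact ⟨hg, h⟩
    | 2 => exact ⟨Data.hm_lt g hg g hg, hmem g hg g hg h h⟩
    | n + 3 => exact ⟨by norm_num, h0⟩
  refine MulEquiv.ext fun x => ?_
  obtain ⟨p, hp, rfl⟩ := c.surj x
  show c.f p ∈ E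
  rw [(word_spec).2 p hp]
  obtain ⟨l1, m1⟩ := hlist 3 (by norm_num) e3 (p / 3 % 3)
  obtain ⟨l2, m2⟩ := hlist 9 (by norm_num) e9 (p / 9)
  obtain ⟨l3, m3⟩ := hlist 1 (by norm_num) e1 (p % 3)
  exact hmem _ (Data.hm_lt _ l1 _ l2) _ l3 (hmem _ l1 _ l2 m1 m2) m3

theorem pairs_count : (Finset.univ.filter fun p : Fin 27 × Fin 27 => hm p.1 p.2 ≠ hm p.2 p.1).card = 432 := by
  decide +kernel

variable (h27 : Nat.card K = 27) (hexp : ∀ x : K, x ^ 3 = 1)
include h27 hexp

theorem Coord.exists_aut (c : Coord K) {X Y : K} (hXY : X * Y ≠ Y * X) :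
    ∃ σ : MulAut K, σ (c.f 9) = X ∧ σ (c.f 3) = Y := by
  obtain ⟨f', hX, hY, -, hmul', hinj', hsurj'⟩ := exists_coord h27 hexp hXY
  choose co hco hcoe using c.surj
  have hco' : ∀ p < 27, co (c.f p) = p := fun p hp => c.inj _ (hco _) _ hp (hcoe _)
  let φ : K →* K := MonoidHom.mk' (fun x => f' (co x)) fun x y => by
    show f' (co (x * y)) = f' (co x) * f' (co y)
    rw [← hmul' _ (hco x) _ (hco y)]
    congr 1
    refine c.inj _ (hco _) _ (Data.hm_lt _ (hco x) _ (hco y)) ?_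
    rw [hcoe, c.mul _ (hco x) _ (hco y), hcoe, hcoe]
  have hφ : Function.Bijective φ := by
    refine ⟨fun x y h => ?_, fun x => ?_⟩
    · rw [← hcoe x, ← hcoe y, hinj' _ (hco x) _ (hco y) h]
    · obtain ⟨p, hp, rfl⟩ := hsurj' x
      exact ⟨c.f p, congrArg f' (hco' p hp)⟩
  refine ⟨MulEquiv.ofBijective φ hφ, ?_, ?_⟩
  · show f' (co (c.f 9)) = X; rw [hco' 9 (by norm_num), hX]
  · show f' (co (c.f 3)) = Y; rw [hco' 3 (by norm_num), hY]

theorem Coord.card_mulAut (c : Coord K) : Nat.card (MulAut K) = 432 := by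
  have hbij : Function.Bijective fun p : Fin 27 => c.f p := by
    refine ⟨fun a b h => Fin.ext (c.inj _ a.2 _ b.2 h), fun x => ?_⟩
    obtain ⟨p, hp, e⟩ := c.surj x
    exact ⟨⟨p, hp⟩, e⟩
  let e := Equiv.ofBijective _ hbij
  have h1 : Nat.card {p : K × K // p.1 * p.2 ≠ p.2 * p.1} = 432 := by
    rw [← pairs_count, ← Fintype.card_subtype, ← Nat.card_eq_fintype_card]
    refine (Nat.card_congr (Equiv.subtypeEquiv (e.prodCongr e) fun p => ?_)).symm
    show _ ↔ c.f p.1 * c.f p.2 ≠ c.f p.2 * c.f p.1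
    rw [← c.mul _ p.1.2 _ p.2.2, ← c.mul _ p.2.2 _ p.1.2]
    exact ⟨fun h h' => h (c.inj _ (Data.hm_lt _ p.1.2 _ p.2.2) _ (Data.hm_lt _ p.2.2 _ p.1.2) h'),
      fun h h' => h (congrArg c.f h')⟩
  rw [← h1]
  refine Nat.card_congr (Equiv.ofBijective
    (fun σ : MulAut K => (⟨(σ (c.f 9), σ (c.f 3)), fun h => c.noncomm (σ.injective (by
      rw [map_mul, map_mul]; exact h))⟩ : {p : K × K // p.1 * p.2 ≠ p.2 * p.1})) ⟨fun σ τ h => ?_, fun p => ?_⟩)
  · have h' := congrArg Subtype.val h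
    exact c.hom_ext σ τ (congrArg Prod.fst h') (congrArg Prod.snd h')
  · obtain ⟨σ, h9, h3⟩ := c.exists_aut h27 hexp p.2
    exact ⟨σ, Subtype.ext (Prod.ext h9 h3)⟩

/-- Coordinates in which a given subgroup of order 16 of the automorphisms is the standard one. -/
theorem exists_adapted {a b : K} (hab : a * b ≠ b * a) (A : Subgroup (MulAut K)) (hA : Nat.card A = 16) :
    ∃ c : Coord K, (∀ k < 16, ∃ σ ∈ A, ∀ x < 27, σ (c.f x) = c.f (hap k x)) ∧
      ∀ σ ∈ A, ∃ k < 16, ∀ x < 27, σ (c.f x) = c.f (hap k x) := by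
  classical
  haveI : Finite K := Nat.finite_of_card_ne_zero (by omega)
  haveI : Fact (Nat.Prime 2) := ⟨Nat.prime_two⟩
  obtain ⟨f, -, -, hf0, hfm, hfi, hfs⟩ := exists_coord h27 hexp hab
  let c : Coord K := ⟨f, hf0, hfm, hfi, hfs⟩
  have hcard := c.card_mulAut h27 hexp
  haveI : Finite (MulAut K) := Nat.finite_of_card_ne_zero (by omega)
  choose co hco hcoe using c.surj
  have hco' : ∀ p < 27, co (c.f p) = p := fun p hp => c.inj _ (hco _) _ hp (hcoe _)
  -- the standard automorphisms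
  have hst : ∀ k < 16, ∃ σ : MulAut K, ∀ x < 27, σ (c.f x) = c.f (hap k x) := by
    intro k hk
    let φ : K →* K := MonoidHom.mk' (fun x => c.f (hap k (co x))) fun x y => by
      show c.f (hap k (co (x * y))) = c.f (hap k (co x)) * c.f (hap k (co y))
      have e : co (x * y) = hm (co x) (co y) := c.inj _ (hco _) _ (Data.hm_lt _ (hco x) _ (hco y)) (by
        rw [hcoe, c.mul _ (hco x) _ (hco y), hcoe, hcoe])
      rw [e, Data.hap_hom k hk _ (hco x) _ (hco y),
        c.mul _ ((Data.hap_lt k hk).1 _ (hco x)) _ ((Data.hap_lt k hk).1 _ (hco y))]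
    obtain ⟨l, hl, hinv⟩ := Data.hap_inv k hk
    have hφ : Function.Bijective φ := by
      refine ⟨fun x y h => ?_, fun x => ?_⟩
      · have h' := c.inj _ ((Data.hap_lt k hk).1 _ (hco x)) _ ((Data.hap_lt k hk).1 _ (hco y)) h
        rw [← hcoe x, ← hcoe y]
        congr 1
        rw [← (hinv (co x) (by have := hco x; omega)).2, h', (hinv (co y) (by have := hco y; omega)).2]
      · obtain ⟨p, hp, rfl⟩ := c.surj x
        refine ⟨c.f (hap l p), ?_⟩
        show c.f (hap k (co (c.f (hap l p)))) = c.f p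
        rw [hco' _ ((Data.hap_lt l hl).1 p hp), (hinv p (by omega)).1]
    refine ⟨MulEquiv.ofBijective φ hφ, fun x hx => ?_⟩
    show c.f (hap k (co (c.f x))) = _
    rw [hco' x hx]
  choose st hst using hst
  have huniq : ∀ k (hk : k < 16) (σ : MulAut K), (∀ x < 27, σ (c.f x) = c.f (hap k x)) → σ = st k hk := by
    intro k hk σ h
    refine MulEquiv.ext fun x => ?_
    obtain ⟨p, hp, rfl⟩ := c.surj x
    rw [h p hp, hst k hk p hp]
  let B : Subgroup (MulAut K) :=
    { carrier := {σ | ∃ k, ∃ hk : k < 16, σ = st k hk}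
      one_mem' := ⟨0, by norm_num, huniq _ _ _ fun x hx => by rw [MulAut.one_apply, Data.hap_zero x (by omega)]⟩
      mul_mem' := by
        rintro _ _ ⟨k, hk, rfl⟩ ⟨l, hl, rfl⟩
        obtain ⟨m, hm', hcomp⟩ := Data.hap_comp k hk l hl
        refine ⟨m, hm', huniq _ _ _ fun x hx => ?_⟩
        rw [MulAut.mul_apply, hst l hl x hx, hst k hk _ ((Data.hap_lt l hl).1 x hx), hcomp x (by omega)]
      inv_mem' := by
        rintro _ ⟨k, hk, rfl⟩
        obtain ⟨l, hl, hinv⟩ := Data.hap_inv k hk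
        refine ⟨l, hl, huniq _ _ _ fun x hx => ?_⟩
        apply (st k hk).injective
        rw [MulAut.apply_inv_self, hst k hk _ ((Data.hap_lt l hl).1 x hx), (hinv x (by omega)).1] }
  have hB : Nat.card B = 16 := by
    have hbij : Function.Bijective fun k : Fin 16 => (⟨st k k.2, k, k.2, rfl⟩ : B) := by
      refine ⟨fun k l h => ?_, fun σ => ?_⟩
      · have h' : st k k.2 = st l l.2 := congrArg Subtype.val h
        refine Fin.ext (Data.hap_distinct k k.2 l l.2 ?_ ?_) <;>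
          refine c.inj _ ((Data.hap_lt k k.2).1 _ (by norm_num)) _ ((Data.hap_lt l l.2).1 _ (by norm_num)) ?_ <;>
          rw [← hst k k.2 _ (by norm_num), ← hst l l.2 _ (by norm_num), h']
      · obtain ⟨k, hk, e⟩ := σ.2
        exact ⟨⟨k, hk⟩, Subtype.ext e.symm⟩
    rw [← Nat.card_congr (Equiv.ofBijective _ hbij), Nat.card_eq_fintype_card, Fintype.card_fin]
  -- conjugation
  have hS : ∀ X : Subgroup (MulAut K), Nat.card X = 16 → ∃ P : Sylow 2 (MulAut K), (P : Subgroup (MulAut K)) = X := by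
    intro X hX
    refine ⟨Sylow.ofCard X ?_, Sylow.coe_ofCard _ _⟩
    have hdec : (432 : ℕ).factorization 2 = 4 := by
      rw [show (432 : ℕ) = 2 ^ 4 * 27 by norm_num, Nat.factorization_mul (by norm_num) (by norm_num),
        Finsupp.add_apply, Nat.Prime.factorization_pow Nat.prime_two, Finsupp.single_eq_same,
        Nat.factorization_eq_zero_of_not_dvd (by norm_num)]
    rw [hcard, hdec, hX]
    norm_num
  obtain ⟨PA, hPA⟩ := hS A hA
  obtain ⟨PB, hPB⟩ := hS B hB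
  obtain ⟨φ, hφ⟩ := MulAction.exists_smul_eq (MulAut K) PB PA
  have hmap : B.map (MulAut.conj φ).toMonoidHom = A := by
    rw [← hPA, ← hPB, ← hφ]
    rfl
  let c' : Coord K :=
    ⟨fun p => φ (c.f p), by show φ (c.f 0) = 1; rw [c.zero, map_one],
      fun p hp q hq => by
        show φ (c.f (hm p q)) = φ (c.f p) * φ (c.f q)
        rw [c.mul p hp q hq, map_mul],
      fun p hp q hq h => c.inj p hp q hq (φ.injective h), fun x => by
        obtain ⟨p, hp, e⟩ := c.surj (φ⁻¹ x)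
        exact ⟨p, hp, by show φ (c.f p) = x; rw [e, MulAut.apply_inv_self]⟩⟩
  have hkey : ∀ k (hk : k < 16), ∀ x < 27, (φ * st k hk * φ⁻¹) (c'.f x) = c'.f (hap k x) := by
    intro k hk x hx
    show φ (st k hk (φ⁻¹ (φ (c.f x)))) = φ (c.f (hap k x))
    rw [MulAut.inv_apply_self, hst k hk x hx]
  refine ⟨c', fun k hk => ⟨φ * st k hk * φ⁻¹, ?_, hkey k hk⟩, fun σ hσ => ?_⟩
  · rw [← hmap]
    exact ⟨st k hk, ⟨k, hk, rfl⟩, rfl⟩
  · rw [← hmap] at hσ
    obtain ⟨_, ⟨k, hk, rfl⟩, rfl⟩ := hσ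
    exact ⟨k, hk, hkey k hk⟩

end CfsgLib.GTwoTwo.Heis
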