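import Cfsg.Agent.Lib.CharTheory.Orthogonality
import Cfsg.Agent.Lib.CharTheory.Inflation
import Cfsg.Agent.Lib.Clifford.DetChar
import Cfsg.Agent.Lib.Coherence.Virtual
import Cfsg.Agent.Lib.CharDegreesTheory.Unitary

/-!
Elementary tools on character values: twisted sums over subgroups and the eigenvalues of an element
killed by every linear character.
-/

set_option autoImplicit false
set_option linter.style.haveILetI false

open Cfsg CfsgLib.CharTheory
open scoped ComplexConjugate commutatorElement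

namespace CfsgLib.GTwoTwo

universe u

variable {G : Type u} [Group G] [Finite G]

/-- A character summed over a subgroup against a linear character. -/
theorem exists_nat_twisted {χ : G → ℂ} (hχ : IsCharacter G χ) (H : Subgroup G) [Fintype H]
    (e : H →* ℂˣ) : ∃ m : ℕ, ∑ h : H, χ h * (e h : ℂ) = (Nat.card H : ℂ) * m := by
  classical
  have hres : IsCharacter H (fun h : H => χ h) := Coherence.isCharacter_comp hχ H.subtype
  obtain ⟨m, hm⟩ := IsCharacter.exists_classInner_eq_nat hres ⟨_, isIrrCharacter_linear e⁻¹⟩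
  refine ⟨m, ?_⟩
  rw [classInner] at hm
  have h0 : (Nat.card H : ℂ) ≠ 0 := Nat.cast_ne_zero.2 Nat.card_pos.ne'
  rw [← hm, ← mul_assoc, mul_inv_cancel₀ h0, one_mul]
  refine Finset.sum_congr rfl fun h _ => congrArg (χ (h : G) * ·) ?_
  have he : ‖(e h : ℂ)‖ = 1 := by
    refine Complex.norm_eq_one_of_pow_eq_one ?_ (orderOf_pos h).ne'
    rw [← Units.val_pow_eq_pow_val, ← map_pow, pow_orderOf_eq_one, map_one, Units.val_one]
  show (e h : ℂ) = conj ((e⁻¹ h : ℂˣ) : ℂ)
  rw [MonoidHom.inv_apply, Units.val_inv_eq_inv_val, map_inv₀, ← Complex.inv_eq_conj he, inv_inv]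

/-- A character summed over a subgroup. -/
theorem exists_nat_sum {χ : G → ℂ} (hχ : IsCharacter G χ) (H : Subgroup G) [Fintype H] :
    ∃ m : ℕ, ∑ h : H, χ h = (Nat.card H : ℂ) * m := by
  obtain ⟨m, hm⟩ := exists_nat_twisted hχ H 1
  exact ⟨m, by simpa using hm⟩

/-- The squares of the values summed over a subgroup. -/
theorem exists_nat_sum_sq {χ : G → ℂ} (hχ : IsCharacter G χ) (H : Subgroup G) [Fintype H] :
    ∃ m : ℕ, ∑ h : H, χ h * χ h = (Nat.card H : ℂ) * m :=
  exists_nat_sum (isCharacter_mul hχ hχ) H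

/-- The eigenvalues of an element killed by all linear characters. -/
theorem exists_roots_det {χ : G → ℂ} (hχ : IsCharacter G χ) {g : G} {n : ℕ} (hn : n ≠ 0)
    (hg : g ^ n = 1) (hlin : ∀ f : G →* ℂˣ, f g = 1) :
    ∃ (d : ℕ) (l : Fin d → ℂ), χ 1 = d ∧ χ g = ∑ i, l i ∧ (∀ i, l i ^ n = 1) ∧ ∏ i, l i = 1 ∧
      ((∀ i j, l i = l j) → ∀ h : G, χ (⁅g, h⁆) = χ 1) := by
  classical
  obtain ⟨k, ρ, rfl⟩ := hχ
  obtain ⟨b, l, hb⟩ := CharDegreesTheory.exists_eigenbasis
    (H := Subgroup.zpowers g) (fun x y => mul_comm' x y) (ρ.comp (Subgroup.zpowers g).subtype)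
  let g' : Subgroup.zpowers g := ⟨g, Subgroup.mem_zpowers g⟩
  have hact : ∀ i, ρ g (b i) = l i g' • b i := fun i => hb i g'
  have hmat : LinearMap.toMatrix b b (ρ g) = Matrix.diagonal fun i => l i g' := by
    ext i j
    rw [LinearMap.toMatrix_apply, hact, map_smul, Matrix.diagonal_apply]
    by_cases h : i = j <;> simp [h]
  refine ⟨_, fun i => l i g', ρ.char_one, ?_, fun i => ?_, ?_, fun hall h => ?_⟩
  · rw [Representation.character, LinearMap.trace_eq_matrix_trace ℂ b, hmat, Matrix.trace_diagonal]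
  · rw [← map_pow, show g' ^ n = 1 from Subtype.ext (by simpa [g'] using hg), map_one]
  · have hd := congrArg (fun x : ℂˣ => (x : ℂ)) (hlin (Clifford.detHom ρ))
    simp only [Clifford.detHom_apply, Units.val_one] at hd
    rwa [← LinearMap.det_toMatrix b, hmat, Matrix.det_diagonal] at hd
  · have hscal : ∀ v, ∀ w, ρ g (ρ w v) = ρ w (ρ g v) := by
      rcases isEmpty_or_nonempty (Fin (Module.finrank ℂ (Fin k → ℂ))) with he | ⟨⟨i₀⟩⟩
      · intro v w
        haveI := he
        have : Subsingleton (Fin k → ℂ) := b.repr.toEquiv.subsingleton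
        exact Subsingleton.elim _ _
      · have hs : ρ g = l i₀ g' • (1 : Module.End ℂ (Fin k → ℂ)) :=
          b.ext fun i => by rw [hact, show l i g' = l i₀ g' from hall i i₀]; simp
        intro v w
        simp [hs]
    have h1 : ρ ⁅g, h⁆ = 1 := by
      have hc : ρ (g * h) = ρ (h * g) := by
        rw [map_mul, map_mul]
        exact LinearMap.ext fun v => hscal v h
      have e : ⁅g, h⁆ = (g * h) * (h * g)⁻¹ := by rw [commutatorElement_def]; group
      rw [e, map_mul, hc, ← map_mul, mul_inv_cancel, map_one]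
    show LinearMap.trace ℂ _ (ρ ⁅g, h⁆) = LinearMap.trace ℂ _ (ρ 1)
    rw [h1, ρ.map_one]

/-- An involution killed by all linear characters: the value is congruent to the degree mod `4`. -/
theorem exists_int_four {χ : G → ℂ} (hχ : IsCharacter G χ) {u : G} (hu : u * u = 1)
    (hlin : ∀ f : G →* ℂˣ, f u = 1) :
    ∃ (d : ℕ) (r : ℤ), χ 1 = d ∧ χ u = r ∧ (4 : ℤ) ∣ (d : ℤ) - r ∧ -(d : ℤ) ≤ r ∧ r ≤ d := by
  classical
  obtain ⟨d, l, hd, hval, hl, hprod, -⟩ := exists_roots_det hχ two_ne_zero (by rwa [pow_two]) hlin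
  have hpm : ∀ i, l i = 1 ∨ l i = -1 := fun i => by
    have := hl i
    rw [pow_two] at this
    exact mul_self_eq_one_iff.1 this
  set S := Finset.univ.filter fun i => l i = -1 with hS
  have hne : ∀ i, l i ≠ -1 → l i = 1 := fun i h => (hpm i).resolve_right h
  have hsum : ∑ i, l i = (d : ℂ) - 2 * S.card := by
    have e : ∀ i, l i = 1 - 2 * (if l i = -1 then (1 : ℂ) else 0) := fun i => by
      split_ifs with h
      · rw [h]; norm_num
      · rw [hne i h]; norm_num
    rw [Finset.sum_congr rfl fun i _ => e i, Finset.sum_sub_distrib, ← Finset.mul_sum, Finset.sum_boole]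
    simp [hS]
  have hprod' : ∏ i, l i = (-1 : ℂ) ^ S.card := by
    rw [Finset.prod_congr rfl fun i _ => (show l i = if l i = -1 then (-1 : ℂ) else 1 by
      split_ifs with h
      · exact h
      · exact hne i h), Finset.prod_ite, Finset.prod_const, Finset.prod_const_one, mul_one]
  have heven : Even S.card := by
    rw [hprod] at hprod'
    rcases Nat.even_or_odd S.card with h | h
    · exact h
    · rw [h.neg_one_pow] at hprod'
      norm_num at hprod'
  obtain ⟨j, hj⟩ := heven
  have hle : S.card ≤ d := by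
    simpa using Finset.card_le_univ S
  refine ⟨d, (d : ℤ) - 2 * S.card, hd, by rw [hval, hsum]; push_cast; ring, ⟨j, by push_cast [hj]; ring⟩,
    by omega, by omega⟩

/-- An element of order three killed by all linear characters and of non-scalar action, in degree
three, has value zero. -/
theorem apply_eq_zero_of_degree_three {χ : G → ℂ} (hχ : IsCharacter G χ) (h3 : χ 1 = 3) {g : G}
    (hg : g ^ 3 = 1) (hlin : ∀ f : G →* ℂˣ, f g = 1) (hns : ¬ ∀ h : G, χ (⁅g, h⁆) = χ 1) :
    χ g = 0 := by
  obtain ⟨d, l, hd, hval, hl, hprod, hall⟩ := exists_roots_det hχ three_ne_zero hg hlin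
  have hd3 : d = 3 := by rw [h3] at hd; exact_mod_cast hd.symm
  subst hd3
  rw [Fin.sum_univ_three] at hval
  rw [Fin.prod_univ_three] at hprod
  rw [hval]
  have key : ∀ a b c : ℂ, a ^ 3 = 1 → b ^ 3 = 1 → a * b * c = 1 → c ^ 3 = 1 → a ≠ b → a + b + c = 0 := by
    intro a b c ha hb habc _ hab
    have h2 : a ^ 2 + a * b + b ^ 2 = 0 := by
      apply mul_left_cancel₀ (sub_ne_zero.2 hab)
      linear_combination ha - hb
    have hab0 : a * b ≠ 0 := fun h => by rw [h, zero_mul] at habc; exact zero_ne_one habc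
    apply mul_left_cancel₀ hab0
    linear_combination (a + b) / 2 * h2 + habc - (1 / 2 : ℂ) * ha - (1 / 2 : ℂ) * hb
  by_cases h01 : l 0 = l 1
  · by_cases h02 : l 0 = l 2
    · exact absurd (hall fun i j => by fin_cases i <;> fin_cases j <;> simp [← h01, ← h02]) hns
    · rw [show l 0 + l 1 + l 2 = l 0 + l 2 + l 1 by ring]
      exact key _ _ _ (hl 0) (hl 2) (by rw [← hprod]; ring) (hl 1) h02
  · exact key _ _ _ (hl 0) (hl 1) hprod (hl 2) h01

end CfsgLib.GTwoTwo
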