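import Cfsg.Agent.Lib.GTwoTwo.CharTools
import Cfsg.Agent.Lib.BrauerCharacters.ClassMul
import Cfsg.Agent.Lib.Coherence.RationalValue
import Cfsg.Agent.Lib.Clifford.SignCharacter

/-!
The columns at a self-centralising element of order seven.
-/

set_option autoImplicit false
set_option linter.style.haveILetI false

open Cfsg CfsgLib.CharTheory
open scoped ComplexConjugate

namespace CfsgLib.GTwoTwo

universe u

variable {G : Type u} [Group G] [Fintype G]

omit [Fintype G] in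
theorem isConj_pow {a b : G} (h : IsConj a b) (n : ℕ) : IsConj (a ^ n) (b ^ n) := by
  obtain ⟨c, hc⟩ := isConj_iff.1 h
  exact isConj_iff.2 ⟨c, by rw [← conj_pow, hc]⟩

theorem exists_degree (χ : IrrCharacter G) :
    ∃ d : ℕ, (χ : G → ℂ) 1 = d ∧ 0 < d ∧ d ∣ Nat.card G := by
  obtain ⟨n, h0, hd, h⟩ := CfsgLib.CharTheory.IsIrrCharacter.exists_degree_dvd χ.2
  exact ⟨n, h, h0, hd⟩

/-- An integral value at an element of order `7` is congruent to the degree. -/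
theorem seven_dvd_sub {θ : G → ℂ} (hθ : IsCharacter G θ) {y : G} (hy : y ^ 7 = 1) {d v : ℤ}
    (hd : θ 1 = d) (hv : θ y = v) : (7 : ℤ) ∣ d - v := by
  have h := CfsgLib.Clifford.apply_pow_prime_pow_cong hθ y (q := 7) (by norm_num) 1
  rw [pow_one, hy, hd, hv, ← Int.cast_pow] at h
  have h1 := CfsgLib.Clifford.intCong_int_dvd (by norm_num) h
  haveI : Fact (Nat.Prime 7) := ⟨by norm_num⟩
  have h2 : (7 : ℤ) ∣ v ^ 7 - v := by
    rw [show (7 : ℤ) = ((7 : ℕ) : ℤ) by norm_num, ← ZMod.intCast_zmod_eq_zero_iff_dvd, Int.cast_sub,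
      Int.cast_pow, ZMod.pow_card, sub_self]
  have h3 := dvd_sub h2 h1
  rwa [show v ^ 7 - v - (v ^ 7 - d) = d - v by ring] at h3

/-- The number of pairs of conjugates of `u` with quotient `g`. -/
theorem pairs_formula [Fintype (IrrCharacter G)]
    (u g : G) (T : ℕ) (hT : ∀ s : Finset G, (∀ x, x ∈ s ↔ IsConj u x ∧ IsConj u (x * g)) → s.card = T) :
    (T : ℂ) = ((Subgroup.centralizer ({u} : Set G)).index : ℂ) ^ 2 / (Nat.card G : ℂ) *
      ∑ χ : IrrCharacter G, (χ : G → ℂ) u * conj ((χ : G → ℂ) u) * (χ : G → ℂ) g / (χ : G → ℂ) 1 := by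
  classical
  have h := CfsgLib.BrauerCharacters.sum_weight_pairs u u (fun x : G => if x = g then (1 : ℂ) else 0)
  simp only [ite_mul, one_mul, zero_mul, Finset.sum_ite_eq', Finset.mem_univ, if_true] at h
  rw [hT _ fun x => by simp] at h
  rw [h, Finset.mul_sum, Finset.mul_sum]
  refine Finset.sum_congr rfl fun χ _ => ?_
  rw [centralChar]
  ring

section
variable [Fintype (IrrCharacter G)] {y : G} (hy : orderOf y = 7)
  (hC : Nat.card (Subgroup.centralizer ({y} : Set G)) = 7)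
include hy hC

theorem pow_seven : y ^ 7 = 1 := hy ▸ pow_orderOf_eq_one y

/-- All generators conjugate: rational integral values. -/
theorem column_six (hall : ∀ t : ℕ, t.Coprime 7 → IsConj y (y ^ t)) :
    ∃ v : IrrCharacter G → ℤ, v (trivIrr G) = 1 ∧ ∑ χ, v χ ^ 2 = 7 ∧
      (∀ χ : IrrCharacter G, (χ : G → ℂ) y = v χ) ∧
      (∀ χ : IrrCharacter G, ∀ d : ℕ, (χ : G → ℂ) 1 = d → (7 : ℤ) ∣ (d : ℤ) - v χ) ∧
      ∀ g : G, ¬ IsConj y g → ∑ χ : IrrCharacter G, (v χ : ℂ) * (χ : G → ℂ) g = 0 := by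
  classical
  have hint : ∀ χ : IrrCharacter G, ∃ n : ℤ, (χ : G → ℂ) y = n := fun χ =>
    CfsgLib.Coherence.exists_int_of_forall_pow_eq (IsIrrCharacter.isGeneralizedCharacter χ.2) y
      fun t ht => (irr_apply_eq_of_isConj (hall t (hy ▸ ht)) χ).symm
  choose v hv using hint
  refine ⟨v, ?_, ?_, hv, fun χ d hd => seven_dvd_sub (IsIrrCharacter.isCharacter χ.2) (pow_seven hy hC)
    (by rw [hd]; push_cast; rfl) (hv χ), fun g hg => ?_⟩
  · have h := (hv (trivIrr G)).symm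
    rw [trivIrr_apply] at h
    exact_mod_cast h
  · have h := sum_mul_conj (G := G) y y
    rw [if_pos (IsConj.refl y), hC] at h
    simp only [hv, map_intCast] at h
    apply Int.cast_injective (α := ℂ)
    push_cast
    refine (Finset.sum_congr rfl fun χ _ => pow_two ((v χ : ℂ))).trans (h.trans (by norm_num))
  · have h := sum_mul_conj (G := G) g y
    rw [if_neg fun e => hg e.symm] at h
    simp only [hv, map_intCast] at h
    rw [← h]
    exact Finset.sum_congr rfl fun χ _ => mul_comm _ _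

/-- Two classes of generators: the support of the column. -/
theorem column_three (hsq : IsConj y (y ^ 2)) (hnot : ¬ IsConj y y⁻¹) :
    ∃ (ξa ξb ξx ξx' : IrrCharacter G) (va vb δ : ℤ),
      (va = 1 ∨ va = -1) ∧ (vb = 1 ∨ vb = -1) ∧ (δ = 1 ∨ δ = -1) ∧
      (trivIrr G ≠ ξa ∧ trivIrr G ≠ ξb ∧ trivIrr G ≠ ξx ∧ trivIrr G ≠ ξx' ∧ ξa ≠ ξb ∧ ξa ≠ ξx ∧
        ξa ≠ ξx' ∧ ξb ≠ ξx ∧ ξb ≠ ξx' ∧ ξx ≠ ξx') ∧
      (∀ g, (ξx' : G → ℂ) g = conj ((ξx : G → ℂ) g)) ∧
      (∀ d : ℕ, (ξa : G → ℂ) 1 = d → (7 : ℤ) ∣ (d : ℤ) - va) ∧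
      (∀ d : ℕ, (ξb : G → ℂ) 1 = d → (7 : ℤ) ∣ (d : ℤ) - vb) ∧
      (∀ d : ℕ, (ξx : G → ℂ) 1 = d → (7 : ℤ) ∣ 2 * (d : ℤ) - δ) ∧
      (∀ g : G, ¬ IsConj y g → ¬ IsConj y⁻¹ g →
        2 + 2 * (va : ℂ) * (ξa : G → ℂ) g + 2 * (vb : ℂ) * (ξb : G → ℂ) g +
          (δ : ℂ) * ((ξx : G → ℂ) g + (ξx' : G → ℂ) g) = 0) ∧
      (∀ u : G, (∀ x : G, IsConj u x → ¬ IsConj u (x * y) ∧ ¬ IsConj u (x * y⁻¹)) →
        2 * (((trivIrr G : IrrCharacter G) : G → ℂ) u * conj (((trivIrr G : IrrCharacter G) : G → ℂ) u)) +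
          2 * (va : ℂ) * ((ξa : G → ℂ) u * conj ((ξa : G → ℂ) u) / (ξa : G → ℂ) 1) +
          2 * (vb : ℂ) * ((ξb : G → ℂ) u * conj ((ξb : G → ℂ) u) / (ξb : G → ℂ) 1) +
          (δ : ℂ) * ((ξx : G → ℂ) u * conj ((ξx : G → ℂ) u) / (ξx : G → ℂ) 1 +
            (ξx' : G → ℂ) u * conj ((ξx' : G → ℂ) u) / (ξx' : G → ℂ) 1) = 0) := by
  classical
  have h7 := pow_seven hy hC
  -- the classes of the generators
  have hcl : ∀ t : ℕ, t.Coprime 7 → IsConj y (y ^ t) ∨ IsConj y⁻¹ (y ^ t) := by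
    intro t ht
    have h4 : IsConj y (y ^ 4) := hsq.trans (by simpa [← pow_mul] using isConj_pow hsq 2)
    have hinv : ∀ k, (y⁻¹) ^ k = y ^ (6 * k) := fun k => by
      have e : y⁻¹ = y ^ 6 := inv_eq_of_mul_eq_one_right (by rw [← pow_succ']; exact h7)
      rw [e, ← pow_mul]
    have hsq' : ∀ k, IsConj y (y ^ k) → IsConj y⁻¹ (y ^ (6 * k)) := fun k h => by
      rw [← hinv]
      have := isConj_pow h 6
      rwa [← pow_mul, mul_comm, ← hinv, ← inv_eq_of_mul_eq_one_right (show y * y ^ 6 = 1 by rw [← pow_succ']; exact h7)] at this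
    have hm : t % 7 ≠ 0 := fun h => by
      have := Nat.le_of_dvd one_pos (ht ▸ Nat.dvd_gcd (Nat.dvd_of_mod_eq_zero h) dvd_rfl)
      omega
    rw [pow_eq_pow_mod t h7]
    have hr := Nat.mod_lt t (show 7 > 0 by norm_num)
    obtain h | h | h | h | h | h : t % 7 = 1 ∨ t % 7 = 2 ∨ t % 7 = 4 ∨ t % 7 = 6 ∨ t % 7 = 5 ∨ t % 7 = 3 := by
      omega
    all_goals rw [h]
    · exact Or.inl (by rw [pow_one])
    · exact Or.inl hsq
    · exact Or.inl h4
    · exact Or.inr (by simpa using hsq' 1 (by rw [pow_one]))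
    · exact Or.inr (by have := hsq' 2 hsq; rwa [pow_eq_pow_mod _ h7] at this)
    · exact Or.inr (by have := hsq' 4 h4; rwa [pow_eq_pow_mod _ h7] at this)
  have hconjval : ∀ χ : IrrCharacter G, ∀ t : ℕ, t.Coprime 7 →
      ((χ : G → ℂ) (y ^ t) = (χ : G → ℂ) y ∧ conj ((χ : G → ℂ) (y ^ t)) = conj ((χ : G → ℂ) y)) ∨
      ((χ : G → ℂ) (y ^ t) = conj ((χ : G → ℂ) y) ∧ conj ((χ : G → ℂ) (y ^ t)) = (χ : G → ℂ) y) := by
    intro χ t ht
    rcases hcl t ht with h | h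
    · have e := (irr_apply_eq_of_isConj h χ).symm
      exact Or.inl ⟨e, by rw [e]⟩
    · have e := (irr_apply_eq_of_isConj h χ).symm
      rw [IsIrrCharacter.inv χ.2] at e
      exact Or.inr ⟨e, by rw [e, Complex.conj_conj]⟩
  have hz' : ∀ χ : IrrCharacter G, ∃ n : ℤ, (χ : G → ℂ) y + conj ((χ : G → ℂ) y) = n := fun χ =>
    CfsgLib.Coherence.exists_int_of_forall_pow_eq (χ := fun g => (χ : G → ℂ) g + conj ((χ : G → ℂ) g))
      (IsCharacter.isGeneralizedCharacter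
        (CfsgLib.Coherence.isCharacter_add (IsIrrCharacter.isCharacter χ.2)
          (isCharacter_conj (IsIrrCharacter.isCharacter χ.2)))) y fun t ht => by
      rcases hconjval χ t (hy ▸ ht) with ⟨e1, e2⟩ | ⟨e1, e2⟩ <;> simp only [e1, e2, Complex.conj_conj]
      ring
  have hq' : ∀ χ : IrrCharacter G, ∃ n : ℤ, (χ : G → ℂ) y * conj ((χ : G → ℂ) y) = n := fun χ =>
    CfsgLib.Coherence.exists_int_of_forall_pow_eq (χ := fun g => (χ : G → ℂ) g * conj ((χ : G → ℂ) g))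
      (IsCharacter.isGeneralizedCharacter
        (isCharacter_mul (IsIrrCharacter.isCharacter χ.2)
          (isCharacter_conj (IsIrrCharacter.isCharacter χ.2)))) y fun t ht => by
      rcases hconjval χ t (hy ▸ ht) with ⟨e1, e2⟩ | ⟨e1, e2⟩ <;> simp only [e1, e2, Complex.conj_conj]
      ring
  choose z hz using hz'
  choose q hq using hq'
  have hre : ∀ χ : IrrCharacter G, (z χ : ℝ) = 2 * ((χ : G → ℂ) y).re ∧
      (q χ : ℝ) = ((χ : G → ℂ) y).re ^ 2 + ((χ : G → ℂ) y).im ^ 2 := fun χ => by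
    constructor
    · have := congrArg Complex.re (hz χ)
      simp at this
      linarith
    · have := congrArg Complex.re (hq χ)
      simp at this
      nlinarith
  have hD0 : ∀ χ, 0 ≤ 4 * q χ - z χ ^ 2 := fun χ => by
    obtain ⟨h1, h2⟩ := hre χ
    have : (0 : ℝ) ≤ ((4 * q χ - z χ ^ 2 : ℤ) : ℝ) := by
      push_cast
      rw [h1, h2]
      nlinarith [sq_nonneg ((χ : G → ℂ) y).im]
    exact_mod_cast this
  have hq0 : ∀ χ, 0 ≤ q χ := fun χ => by nlinarith [hD0 χ, sq_nonneg (z χ)]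
  -- congruences
  have hcong : ∀ (χ : IrrCharacter G) (d : ℕ), (χ : G → ℂ) 1 = d →
      (7 : ℤ) ∣ 2 * (d : ℤ) - z χ ∧ (7 : ℤ) ∣ (d : ℤ) * d - q χ := by
    intro χ d hd
    constructor
    · exact seven_dvd_sub (θ := fun g => (χ : G → ℂ) g + conj ((χ : G → ℂ) g))
        (CfsgLib.Coherence.isCharacter_add (IsIrrCharacter.isCharacter χ.2)
          (isCharacter_conj (IsIrrCharacter.isCharacter χ.2))) h7
        (by simp only [hd, map_natCast]; push_cast; ring) (hz χ)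
    · exact seven_dvd_sub (θ := fun g => (χ : G → ℂ) g * conj ((χ : G → ℂ) g))
        (isCharacter_mul (IsIrrCharacter.isCharacter χ.2)
          (isCharacter_conj (IsIrrCharacter.isCharacter χ.2))) h7
        (by simp only [hd, map_natCast]; push_cast; ring) (hq χ)
  have hD7 : ∀ χ, (7 : ℤ) ∣ 4 * q χ - z χ ^ 2 := fun χ => by
    obtain ⟨d, hd, -, -⟩ := exists_degree χ
    obtain ⟨⟨i, hi⟩, ⟨j, hj⟩⟩ := hcong χ d hd
    exact ⟨4 * i * (d : ℤ) - 4 * j - 7 * i ^ 2, by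
      have e1 : z χ = 2 * (d : ℤ) - 7 * i := by linarith
      have e2 : q χ = (d : ℤ) * d - 7 * j := by linarith
      rw [e1, e2]; ring⟩
  have hD14 : ∀ χ, 4 * q χ - z χ ^ 2 ≠ 14 := fun χ h => by
    rcases Int.even_or_odd (z χ) with ⟨k, hk⟩ | ⟨k, hk⟩
    · rw [hk, show (k + k) ^ 2 = 4 * k ^ 2 by ring] at h; omega
    · rw [hk, show (2 * k + 1) ^ 2 = 4 * (k ^ 2 + k) + 1 by ring] at h; omega
  -- sums
  have hs1 : ∑ χ, q χ = 7 := by
    have h := sum_mul_conj (G := G) y y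
    rw [if_pos (IsConj.refl y), hC] at h
    simp only [hq] at h
    apply Int.cast_injective (α := ℂ)
    push_cast
    exact h.trans (by norm_num)
  have hs2 : ∑ χ, z χ ^ 2 = 14 := by
    have h := sum_mul_conj (G := G) y y
    rw [if_pos (IsConj.refl y), hC] at h
    have h' := sum_mul_conj (G := G) y y⁻¹
    rw [if_neg hnot] at h'
    simp only [IsIrrCharacter.inv (Subtype.prop _), Complex.conj_conj] at h'
    have h'' := congrArg conj h'
    simp only [map_sum, map_mul, map_zero] at h''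
    apply Int.cast_injective (α := ℂ)
    push_cast
    simp only [← hz]
    rw [show ∑ χ : IrrCharacter G, ((χ : G → ℂ) y + conj ((χ : G → ℂ) y)) ^ 2 =
      ∑ χ : IrrCharacter G, (χ : G → ℂ) y * (χ : G → ℂ) y +
      ∑ χ : IrrCharacter G, conj ((χ : G → ℂ) y) * conj ((χ : G → ℂ) y) +
      2 * ∑ χ : IrrCharacter G, (χ : G → ℂ) y * conj ((χ : G → ℂ) y) by
        rw [Finset.mul_sum, ← Finset.sum_add_distrib, ← Finset.sum_add_distrib]
        exact Finset.sum_congr rfl fun χ _ => by ring, h', h'', h]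
    norm_num
  have htriv : z (trivIrr G) = 2 ∧ q (trivIrr G) = 1 := by
    have h1 := hz (trivIrr G)
    have h2 := hq (trivIrr G)
    simp only [trivIrr_apply, map_one, mul_one] at h1 h2
    norm_num at h1
    exact ⟨by exact_mod_cast h1.symm, by exact_mod_cast h2.symm⟩
  set U := (Finset.univ : Finset (IrrCharacter G)).erase (trivIrr G) with hU
  set D := U.filter fun χ => 4 * q χ - z χ ^ 2 ≠ 0 with hDdef
  have hU1 : ∑ χ ∈ U, q χ = 6 := by
    have := Finset.add_sum_erase Finset.univ q (Finset.mem_univ (trivIrr G))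
    rw [hs1, htriv.2] at this
    rw [hU]
    linarith
  have hUD : ∑ χ ∈ D, (4 * q χ - z χ ^ 2) = 14 := by
    rw [hDdef, Finset.sum_filter_ne_zero, Finset.sum_sub_distrib, ← Finset.mul_sum, hU1]
    have := Finset.add_sum_erase Finset.univ (fun χ => z χ ^ 2) (Finset.mem_univ (trivIrr G))
    rw [hs2, htriv.1] at this
    rw [hU]
    linarith
  have hD7' : ∀ χ ∈ D, 4 * q χ - z χ ^ 2 = 7 := by
    intro χ hχ
    have h1 := Finset.single_le_sum (f := fun χ => 4 * q χ - z χ ^ 2) (fun φ _ => hD0 φ) hχ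
    rw [hUD] at h1
    have h2 := (Finset.mem_filter.1 hχ).2
    have h3 := hD14 χ
    obtain ⟨k, hk⟩ := hD7 χ
    have := hD0 χ
    omega
  have hDcard : D.card = 2 := by
    rw [Finset.sum_congr rfl hD7', Finset.sum_const, nsmul_eq_mul] at hUD
    have h : ((D.card : ℤ)) = 2 := by linarith
    exact_mod_cast h
  obtain ⟨ξx, ξ', hne, hDeq⟩ := Finset.card_eq_two.1 hDcard
  set ξx' : IrrCharacter G := ⟨_, isIrrCharacter_conj ξx.2⟩ with hξx'
  have hxmem : ξx ∈ D := by rw [hDeq]; simp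
  have hzconj : z ξx' = z ξx ∧ q ξx' = q ξx := by
    have h1 := hz ξx'
    have h2 := hq ξx'
    simp only [hξx', Complex.conj_conj] at h1 h2
    rw [add_comm, hz ξx] at h1
    rw [mul_comm, hq ξx] at h2
    exact ⟨by exact_mod_cast h1.symm, by exact_mod_cast h2.symm⟩
  have hx'ne : ξx' ≠ ξx := fun h => by
    have h1 : conj ((ξx : G → ℂ) y) = (ξx : G → ℂ) y := congrArg (fun χ : IrrCharacter G => (χ : G → ℂ) y) h
    have him := Complex.conj_eq_iff_im.1 h1
    obtain ⟨e1, e2⟩ := hre ξx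
    apply (Finset.mem_filter.1 hxmem).2
    have : (((4 * q ξx - z ξx ^ 2 : ℤ)) : ℝ) = ((0 : ℤ) : ℝ) := by
      push_cast
      rw [e1, e2, him]
      ring
    exact_mod_cast this
  have hx'mem : ξx' ∈ D := by
    rw [hDdef, Finset.mem_filter, hzconj.1, hzconj.2]
    refine ⟨Finset.mem_erase.2 ⟨fun h => ?_, Finset.mem_univ _⟩, (Finset.mem_filter.1 hxmem).2⟩
    have h' := (Finset.mem_filter.1 hxmem).2
    rw [← hzconj.1, ← hzconj.2, h, htriv.1, htriv.2] at h'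
    norm_num at h'
  have hD' : D = {ξx, ξx'} := by
    rw [hDeq] at hx'mem ⊢
    simp only [Finset.mem_insert, Finset.mem_singleton] at hx'mem
    rcases hx'mem with h | h
    · exact absurd h hx'ne
    · rw [h]
  -- the rows outside D
  set R := U.filter fun χ => 4 * q χ - z χ ^ 2 = 0 ∧ q χ ≠ 0 with hR
  have hsplit : ∑ χ ∈ U, q χ = ∑ χ ∈ D, q χ + ∑ χ ∈ R, q χ := by
    rw [← Finset.sum_filter_add_sum_filter_not U (fun χ => 4 * q χ - z χ ^ 2 ≠ 0)]
    congr 1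
    rw [hR, ← Finset.filter_filter, Finset.sum_filter_ne_zero]
    exact Finset.sum_congr (Finset.filter_congr fun χ _ => not_not) fun _ _ => rfl
  rw [hU1, hD', Finset.sum_pair hx'ne.symm, hzconj.2] at hsplit
  have hqx : q ξx = 2 ∧ (z ξx = 1 ∨ z ξx = -1) := by
    have h7' := hD7' ξx hxmem
    have hle : q ξx ≤ 3 := by
      have : 0 ≤ ∑ χ ∈ R, q χ := Finset.sum_nonneg fun χ _ => hq0 χ
      linarith
    have hb : -3 < z ξx ∧ z ξx < 3 := ⟨by nlinarith, by nlinarith⟩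
    obtain ⟨hb1, hb2⟩ := hb
    interval_cases hzz : z ξx <;> omega
  have hR2 : ∑ χ ∈ R, q χ = 2 := by linarith [hsplit, hqx.1]
  have hR1 : ∀ χ ∈ R, q χ = 1 ∧ (z χ = 2 ∨ z χ = -2) := by
    intro χ hχ
    have h1 := Finset.single_le_sum (f := q) (fun φ _ => hq0 φ) hχ
    rw [hR2] at h1
    obtain ⟨-, h2, h3⟩ := Finset.mem_filter.1 hχ
    have := hq0 χ
    have hb : -3 < z χ ∧ z χ < 3 := ⟨by nlinarith, by nlinarith⟩
    obtain ⟨hb1, hb2⟩ := hb
    interval_cases hzz : z χ <;> omega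
  have hRcard : R.card = 2 := by
    rw [Finset.sum_congr rfl fun χ hχ => (hR1 χ hχ).1, Finset.sum_const, nsmul_one] at hR2
    exact_mod_cast hR2
  obtain ⟨ξa, ξb, hab, hReq⟩ := Finset.card_eq_two.1 hRcard
  have hamem : ξa ∈ R := by rw [hReq]; simp
  have hbmem : ξb ∈ R := by rw [hReq]; simp
  have hsum : ∀ f : IrrCharacter G → ℂ, ∑ χ, (z χ : ℂ) * f χ =
      2 * f (trivIrr G) + (z ξa : ℂ) * f ξa + (z ξb : ℂ) * f ξb + (z ξx : ℂ) * (f ξx + f ξx') := by
    intro f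
    rw [← Finset.add_sum_erase _ _ (Finset.mem_univ (trivIrr G)), htriv.1, ← hU]
    have hzero : ∀ χ ∈ U, χ ∉ D ∪ R → z χ = 0 := by
      intro χ hχ hn
      rw [Finset.mem_union, not_or, hDdef, hR, Finset.mem_filter, Finset.mem_filter] at hn
      obtain ⟨hn1, hn2⟩ := hn
      have e1 : 4 * q χ - z χ ^ 2 = 0 := not_not.1 fun h => hn1 ⟨hχ, h⟩
      have e2 : q χ = 0 := not_not.1 fun h => hn2 ⟨hχ, e1, h⟩
      rw [e2] at e1
      exact (pow_eq_zero_iff two_ne_zero).1 (by linarith)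
    have hsub : D ∪ R ⊆ U := Finset.union_subset (Finset.filter_subset _ _) (Finset.filter_subset _ _)
    have hdisj : Disjoint D R := Finset.disjoint_left.2 fun χ h1 h2 =>
        ((Finset.mem_filter.1 h1).2 : _ ≠ _) (Finset.mem_filter.1 h2).2.1
    rw [← Finset.sum_subset hsub (fun χ hχ hn => by rw [hzero χ hχ hn, Int.cast_zero, zero_mul]),
      Finset.sum_union hdisj,
      hD', hReq, Finset.sum_pair hx'ne.symm, Finset.sum_pair hab, hzconj.1]
    push_cast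
    ring
  obtain ⟨va, hva, hza⟩ : ∃ va : ℤ, (va = 1 ∨ va = -1) ∧ z ξa = 2 * va := by
    rcases (hR1 ξa hamem).2 with h | h
    · exact ⟨1, Or.inl rfl, h⟩
    · exact ⟨-1, Or.inr rfl, h⟩
  obtain ⟨vb, hvb, hzb⟩ : ∃ vb : ℤ, (vb = 1 ∨ vb = -1) ∧ z ξb = 2 * vb := by
    rcases (hR1 ξb hbmem).2 with h | h
    · exact ⟨1, Or.inl rfl, h⟩
    · exact ⟨-1, Or.inr rfl, h⟩
  have hRD : ∀ χ ∈ R, ∀ φ ∈ D, χ ≠ φ := fun χ h φ h' e =>
    (Finset.mem_filter.1 h').2 (e ▸ (Finset.mem_filter.1 h).2.1)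
  have hnt : ∀ χ ∈ U, trivIrr G ≠ χ := fun χ h e => (Finset.mem_erase.1 h).1 e.symm
  refine ⟨ξa, ξb, ξx, ξx', va, vb, z ξx, hva, hvb, hqx.2,
    ⟨hnt _ (Finset.mem_filter.1 hamem).1, hnt _ (Finset.mem_filter.1 hbmem).1,
      hnt _ (Finset.mem_filter.1 hxmem).1, hnt _ (Finset.mem_filter.1 hx'mem).1, hab,
      hRD _ hamem _ hxmem, hRD _ hamem _ hx'mem, hRD _ hbmem _ hxmem, hRD _ hbmem _ hx'mem, hx'ne.symm⟩,
    fun g => rfl, fun d hd => ?_, fun d hd => ?_, fun d hd => (hcong ξx d hd).1, fun g hg1 hg2 => ?_,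
    fun u hu => ?_⟩
  · obtain ⟨i, hi⟩ := (hcong ξa d hd).1
    rw [hza] at hi
    exact (IsCoprime.dvd_of_dvd_mul_left (by norm_num : IsCoprime (7 : ℤ) 2) ⟨i, by linarith⟩)
  · obtain ⟨i, hi⟩ := (hcong ξb d hd).1
    rw [hzb] at hi
    exact (IsCoprime.dvd_of_dvd_mul_left (by norm_num : IsCoprime (7 : ℤ) 2) ⟨i, by linarith⟩)
  · have h1 := sum_mul_conj (G := G) g y
    rw [if_neg fun e => hg1 e.symm] at h1
    have h2 := sum_mul_conj (G := G) g y⁻¹
    rw [if_neg fun e => hg2 e.symm] at h2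
    simp only [IsIrrCharacter.inv (Subtype.prop _), Complex.conj_conj] at h2
    have h3 : ∑ χ : IrrCharacter G, (z χ : ℂ) * (χ : G → ℂ) g = 0 := by
      simp only [← hz, add_mul, Finset.sum_add_distrib]
      rw [Finset.sum_congr rfl fun (χ : IrrCharacter G) _ => mul_comm ((χ : G → ℂ) y) _,
        Finset.sum_congr rfl fun (χ : IrrCharacter G) _ => mul_comm (conj ((χ : G → ℂ) y)) _, h1, h2, add_zero]
    rw [hsum, hza, hzb, trivIrr_apply] at h3
    push_cast at h3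
    linear_combination h3
  · have hzero : ∀ w : G, (∀ x : G, IsConj u x → ¬ IsConj u (x * w)) →
        ∑ χ : IrrCharacter G, (χ : G → ℂ) u * conj ((χ : G → ℂ) u) * (χ : G → ℂ) w / (χ : G → ℂ) 1 = 0 := by
      intro w hw
      have h := pairs_formula u w 0 fun s hs => Finset.card_eq_zero.2 (Finset.eq_empty_of_forall_notMem
        fun x hx => hw x ((hs x).1 hx).1 ((hs x).1 hx).2)
      rw [Nat.cast_zero, eq_comm, mul_eq_zero] at h
      refine h.resolve_left (div_ne_zero (pow_ne_zero 2 ?_) (Nat.cast_ne_zero.2 Nat.card_pos.ne'))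
      exact Nat.cast_ne_zero.2 Subgroup.index_ne_zero_of_finite
    have e1 := hzero y fun x hx => (hu x hx).1
    have e2 := hzero y⁻¹ fun x hx => (hu x hx).2
    simp only [IsIrrCharacter.inv (Subtype.prop _)] at e2
    have h3 : ∑ χ : IrrCharacter G, (z χ : ℂ) * ((χ : G → ℂ) u * conj ((χ : G → ℂ) u) / (χ : G → ℂ) 1) = 0 := by
      simp only [← hz, add_mul, Finset.sum_add_distrib]
      rw [Finset.sum_congr rfl fun (χ : IrrCharacter G) _ => show (χ : G → ℂ) y * ((χ : G → ℂ) u *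
          conj ((χ : G → ℂ) u) / (χ : G → ℂ) 1) = (χ : G → ℂ) u * conj ((χ : G → ℂ) u) * (χ : G → ℂ) y /
          (χ : G → ℂ) 1 by ring, e1,
        Finset.sum_congr rfl fun (χ : IrrCharacter G) _ => show conj ((χ : G → ℂ) y) * ((χ : G → ℂ) u *
          conj ((χ : G → ℂ) u) / (χ : G → ℂ) 1) = (χ : G → ℂ) u * conj ((χ : G → ℂ) u) *
          conj ((χ : G → ℂ) y) / (χ : G → ℂ) 1 by ring, e2, add_zero]
    rw [hsum, hza, hzb] at h3
    simp only [trivIrr_apply, div_one] at h3 ⊢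
    push_cast at h3
    linear_combination h3

end

end CfsgLib.GTwoTwo
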