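import Cfsg.Agent.Lib.GTwoTwo.Data
import Mathlib

/-!
Coordinates on a non-abelian group of order 27 and exponent 3.
-/

set_option autoImplicit false
set_option linter.style.haveILetI false

open Subgroup
open scoped commutatorElement

namespace CfsgLib.GTwoTwo.Heis

universe u

variable {K : Type u} [Group K] (h27 : Nat.card K = 27) (hexp : ∀ x : K, x ^ 3 = 1)
  {a b : K} (hab : a * b ≠ b * a)

include h27 in
omit [Group K] in
theorem finite : Finite K := Nat.finite_of_card_ne_zero (by omega)

include h27 hab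

theorem card_center : Nat.card (center K) = 3 := by
  have := finite h27
  haveI : Fact (Nat.Prime 3) := ⟨Nat.prime_three⟩
  have hp : IsPGroup 3 K := IsPGroup.of_card (n := 3) (by rw [h27]; norm_num)
  obtain ⟨k, hk0, hk⟩ := IsPGroup.card_center_eq_prime_pow (p := 3) (n := 3) (G := K)
    (by rw [h27]; norm_num) (by norm_num)
  have hd : 3 ^ k ∣ 3 ^ 3 := by
    rw [← hk, show (3 : ℕ) ^ 3 = 27 by norm_num, ← h27]
    exact card_subgroup_dvd_card _
  have hk3 : k ≤ 3 := (Nat.pow_dvd_pow_iff_le_right (by norm_num)).1 hd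
  have hne : k ≠ 2 ∧ k ≠ 3 := by
    constructor <;> intro h <;> subst h <;> apply hab
    · have hq : Nat.card (K ⧸ center K) = 3 := by
        have h := (center K).card_mul_index
        rw [hk, h27, index_eq_card] at h
        omega
      haveI : IsCyclic (K ⧸ center K) := isCyclic_of_prime_card hq
      exact commutative_of_cyclic_center_quotient (QuotientGroup.mk' (center K))
        (by rw [QuotientGroup.ker_mk']) a b
    · have ht : center K = ⊤ := eq_top_of_card_eq _ (by rw [hk, h27]; norm_num)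
      exact (mem_center_iff.1 (ht ▸ mem_top a : a ∈ center K) b).symm
  obtain rfl : k = 1 := by omega
  simpa using hk

theorem commutator_mem (x y : K) : ⁅x, y⁆ ∈ center K := by
  have := finite h27
  haveI : Fact (Nat.Prime 3) := ⟨Nat.prime_three⟩
  have hq : Nat.card (K ⧸ center K) = 3 ^ 2 := by
    have h := (center K).card_mul_index
    rw [card_center h27 hab, h27, index_eq_card] at h
    omega
  rw [← QuotientGroup.eq_one_iff, commutatorElement_def]
  simp only [QuotientGroup.mk_mul, QuotientGroup.mk_inv]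
  rw [IsPGroup.commutative_of_card_eq_prime_sq hq (x : K ⧸ center K) y]
  group

/-- Every central element is a commutator with a given non-central one. -/
theorem exists_conj_eq_mul (hexp : ∀ x : K, x ^ 3 = 1) {d : K} (hd : d ∉ center K) {w : K} (hw : w ∈ center K) :
    ∃ g : K, g * d * g⁻¹ = d * w := by
  have := finite h27
  haveI : Fact (Nat.Prime 3) := ⟨Nat.prime_three⟩
  obtain ⟨x, hx⟩ : ∃ x : K, x * d ≠ d * x := by
    by_contra h
    push Not at h
    exact hd (mem_center_iff.2 h)
  set c := d⁻¹ * (x * d * x⁻¹) with hc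
  have hcz : c ∈ center K := by
    have h : c = ⁅d⁻¹, x⁆ := by rw [hc, commutatorElement_def]; group
    rw [h]
    exact commutator_mem h27 hab _ _
  have hc1 : c ≠ 1 := fun h => by
    rw [hc, inv_mul_eq_one] at h
    exact hx (mul_inv_eq_iff_eq_mul.1 h.symm)
  have hzp : zpowers c = center K := by
    refine eq_of_le_of_card_ge (zpowers_le.2 hcz) (le_of_eq ?_)
    rw [card_center h27 hab, Nat.card_zpowers, orderOf_eq_prime (hexp c) hc1]
  obtain ⟨k, hk⟩ := (isOfFinOrder_of_finite c).mem_powers_iff_mem_zpowers.2 (hzp.ge hw)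
  refine ⟨x ^ k, ?_⟩
  have hk' : c ^ k = w := hk
  rw [← hk']
  have e : x * d * x⁻¹ = d * c := by rw [hc]; group
  have hcomm : ∀ n : ℕ, x * c ^ n * x⁻¹ = c ^ n := fun n => by
    rw [mem_center_iff.1 (pow_mem hcz n) x, mul_inv_cancel_right]
  clear hk hk'
  induction k with
  | zero => simp
  | succ k ih =>
    rw [pow_succ', show x * x ^ k * d * (x * x ^ k)⁻¹ = x * (x ^ k * d * (x ^ k)⁻¹) * x⁻¹ by group, ih,
      show x * (d * c ^ k) * x⁻¹ = x * d * x⁻¹ * (x * c ^ k * x⁻¹) by group, e, hcomm, pow_succ', mul_assoc]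

include hexp

/-- Coordinates: `9i + 3j + k ↦ b^j a^i z^k`. -/
theorem exists_coord : ∃ f : ℕ → K, f 9 = a ∧ f 3 = b ∧ f 0 = 1 ∧
    (∀ p < 27, ∀ q < 27, f (Data.hm p q) = f p * f q) ∧
    (∀ p < 27, ∀ q < 27, f p = f q → p = q) ∧ ∀ x : K, ∃ p < 27, f p = x := by
  have := finite h27
  haveI : Fact (Nat.Prime 3) := ⟨Nat.prime_three⟩
  set z := (b * a)⁻¹ * (a * b) with hzdef
  have hz : z ∈ center K := by
    have h : z = ⁅a⁻¹, b⁻¹⁆ := by rw [hzdef, commutatorElement_def]; group
    rw [h]
    exact commutator_mem h27 hab _ _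
  have hzc : ∀ x : K, Commute z x := fun x => (mem_center_iff.1 hz x).symm
  have e1 : a * b = b * a * z := by rw [hzdef]; group
  have e2 : ∀ j : ℕ, a * b ^ j = b ^ j * a * z ^ j := by
    intro j
    induction j with
    | zero => simp
    | succ j ih =>
      calc a * b ^ (j + 1) = a * b ^ j * b := by rw [pow_succ, mul_assoc]
        _ = b ^ j * a * z ^ j * b := by rw [ih]
        _ = b ^ j * (a * b) * z ^ j := by
          rw [mul_assoc _ (z ^ j) b, ((hzc b).pow_left j).eq]; simp only [mul_assoc]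
        _ = b ^ (j + 1) * a * z ^ (j + 1) := by
          rw [e1, pow_succ, pow_succ']; simp only [mul_assoc]
  have e3 : ∀ i j : ℕ, a ^ i * b ^ j = b ^ j * a ^ i * z ^ (i * j) := by
    intro i j
    induction i with
    | zero => simp
    | succ i ih =>
      calc a ^ (i + 1) * b ^ j = a * (a ^ i * b ^ j) := by rw [pow_succ', mul_assoc]
        _ = a * b ^ j * a ^ i * z ^ (i * j) := by rw [ih]; simp only [mul_assoc]
        _ = b ^ j * a * (a ^ i * z ^ j) * z ^ (i * j) := by
          rw [e2, mul_assoc _ (z ^ j) (a ^ i), ((hzc (a ^ i)).pow_left j).eq]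
        _ = b ^ j * a ^ (i + 1) * z ^ ((i + 1) * j) := by
          rw [pow_succ', Nat.succ_mul, add_comm (i * j), pow_add]; simp only [mul_assoc]
  have hmod : ∀ (x : K) (n : ℕ), x ^ (n % 3) = x ^ n := fun x n => by
    conv_rhs => rw [← Nat.mod_add_div n 3, pow_add, pow_mul, hexp, one_pow, mul_one]
  set f : ℕ → K := fun p => b ^ (p / 3 % 3) * a ^ (p / 9) * z ^ (p % 3) with hf
  have hcoord : ∀ i j k : ℕ, i < 3 → j < 3 → k < 3 → f (9 * i + 3 * j + k) = b ^ j * a ^ i * z ^ k := by
    intro i j k hi hj hk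
    simp only [hf]
    rw [show (9 * i + 3 * j + k) / 3 % 3 = j by omega, show (9 * i + 3 * j + k) / 9 = i by omega,
      show (9 * i + 3 * j + k) % 3 = k by omega]
  have hmul : ∀ p < 27, ∀ q < 27, f (Data.hm p q) = f p * f q := by
    intro p hp q hq
    rw [Data.hm, hcoord _ _ _ (by omega) (by omega) (by omega), hmod, hmod, hmod]
    simp only [hf]
    rw [pow_add, pow_add, pow_add, pow_add]
    generalize p / 9 = i, p / 3 % 3 = j, p % 3 = k, q / 9 = i', q / 3 % 3 = j', q % 3 = k'
    symm
    calc b ^ j * a ^ i * z ^ k * (b ^ j' * a ^ i' * z ^ k')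
        = b ^ j * a ^ i * (b ^ j' * a ^ i') * (z ^ k * z ^ k') := by
          rw [mul_assoc (b ^ j * a ^ i) (z ^ k), ← mul_assoc (z ^ k) (b ^ j' * a ^ i'),
            ((hzc (b ^ j' * a ^ i')).pow_left k).eq]
          simp only [mul_assoc]
      _ = b ^ j * (a ^ i * b ^ j') * a ^ i' * (z ^ k * z ^ k') := by simp only [mul_assoc]
      _ = b ^ j * (b ^ j' * a ^ i * z ^ (i * j')) * a ^ i' * (z ^ k * z ^ k') := by rw [e3]
      _ = b ^ j * b ^ j' * (a ^ i * a ^ i') * (z ^ k * z ^ k' * z ^ (i * j')) := by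
          rw [← mul_assoc (b ^ j), mul_assoc _ (z ^ (i * j')) (a ^ i'), ((hzc (a ^ i')).pow_left (i * j')).eq,
            (((hzc z).pow_left k).pow_right k').eq]
          simp only [mul_assoc]
          simp only [← pow_add]
          ring_nf
  have hf9 : f 9 = a := by simpa using hcoord 1 0 0 (by norm_num) (by norm_num) (by norm_num)
  have hf3 : f 3 = b := by simpa using hcoord 0 1 0 (by norm_num) (by norm_num) (by norm_num)
  have hf0 : f 0 = 1 := by simp [hf]
  have hsurj : ∀ x : K, ∃ p < 27, f p = x := by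
    have hlt : ∀ p q : ℕ, Data.hm p q < 27 := fun p q => by rw [Data.hm]; omega
    let R : Subgroup K :=
      { carrier := {x | ∃ p < 27, f p = x}
        one_mem' := ⟨0, by norm_num, hf0⟩
        mul_mem' := by
          rintro _ _ ⟨p, hp, rfl⟩ ⟨q, hq, rfl⟩
          exact ⟨_, hlt p q, hmul p hp q hq⟩
        inv_mem' := by
          rintro _ ⟨p, hp, rfl⟩
          refine ⟨_, hlt p p, ?_⟩
          rw [hmul p hp p hp, eq_inv_iff_mul_eq_one, ← pow_two, ← pow_succ]
          exact hexp _ }
    have haR : a ∈ R := ⟨9, by norm_num, hf9⟩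
    have hbR : b ∈ R := ⟨3, by norm_num, hf3⟩
    have htop : R = ⊤ := by
      by_contra hne
      have hd : Nat.card R ∣ 3 ^ 3 := by
        rw [show (3 : ℕ) ^ 3 = 27 by norm_num, ← h27]; exact card_subgroup_dvd_card R
      obtain ⟨k, hk3, hk⟩ := (Nat.dvd_prime_pow Nat.prime_three).1 hd
      have hk2 : k ≤ 2 := by
        by_contra h
        obtain rfl : k = 3 := by omega
        exact hne (eq_top_of_card_eq _ (by rw [hk, h27]; norm_num))
      refine hab ?_
      have hcom : ∀ u v : R, u * v = v * u := by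
        interval_cases k
        · have : Subsingleton R := (Nat.card_eq_one_iff_unique.1 (by simpa using hk)).1
          exact fun u v => Subsingleton.elim _ _
        · haveI : IsCyclic R := isCyclic_of_prime_card (by simpa using hk)
          exact fun u v => IsCyclic.commGroup.mul_comm u v
        · exact IsPGroup.commutative_of_card_eq_prime_sq hk
      exact congrArg Subtype.val (hcom ⟨a, haR⟩ ⟨b, hbR⟩)
    intro x
    exact (htop ▸ mem_top x : x ∈ R)
  refine ⟨f, hf9, hf3, hf0, hmul, ?_, hsurj⟩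
  have hbij : Function.Bijective fun p : Fin 27 => f p := by
    haveI := Fintype.ofFinite K
    rw [Fintype.bijective_iff_surjective_and_card, ← Nat.card_eq_fintype_card (α := K), h27, Fintype.card_fin]
    refine ⟨fun x => ?_, rfl⟩
    obtain ⟨p, hp, e⟩ := hsurj x
    exact ⟨⟨p, hp⟩, e⟩
  intro p hp q hq he
  exact congrArg Fin.val (hbij.1 (a₁ := ⟨p, hp⟩) (a₂ := ⟨q, hq⟩) he)

end CfsgLib.GTwoTwo.Heis
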