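import Cfsg.Agent.Lib.GTwoTwo.Values
import Cfsg.Agent.Lib.GTwoTwo.Heis

/-!
The Sylow 3-subgroups of a simple group of order 6048 without elements of order 9, 14 and 21: they are
non-abelian, their normalisers are transitive on the non-central elements and two of them meet trivially.
-/

set_option autoImplicit false
set_option linter.style.haveILetI false
set_option linter.unusedSectionVars false

open Cfsg CfsgLib.CharTheory CfsgLib.SmallGroups Subgroup
open scoped commutatorElement

namespace CfsgLib.GTwoTwo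

universe u

variable {M : Type u} [Group M] [Fintype M] [IsSimpleGroup M]
  (hcard : Nat.card M = 6048) (hno : NoOrders M) (ch : SmallChars M)

section sylow

variable [Fact (Nat.Prime 3)]
include hcard hno

theorem card_sylow_three (S : Sylow 3 M) : Nat.card ↥(S : Subgroup M) = 27 :=
  (card_sylow_eq (p := 3) (a := 3) (m := 224) (by rw [hcard]; norm_num) (by norm_num) S).trans (by norm_num)

theorem exp_sylow_three (S : Sylow 3 M) {s : M} (hs : s ∈ (S : Subgroup M)) : s ^ 3 = 1 := by
  refine hno.three_elements (k := 3) ?_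
  have h : (⟨s, hs⟩ : ↥(S : Subgroup M)) ^ Nat.card ↥(S : Subgroup M) = 1 := pow_card_eq_one'
  rw [card_sylow_three hcard hno] at h
  simpa using congrArg Subtype.val h

include ch

theorem card_inf_centralizer_le (S : Sylow 3 M) {u : M} (hu : orderOf u = 2) :
    Nat.card ↥((S : Subgroup M) ⊓ centralizer ({u} : Set M) : Subgroup M) ≤ 3 := by
  set C := (S : Subgroup M) ⊓ centralizer ({u} : Set M)
  have hd : Nat.card C ∣ 3 ^ 3 := by
    rw [show (3 : ℕ) ^ 3 = 27 by norm_num, ← card_sylow_three hcard hno S]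
    exact card_dvd_of_le inf_le_left
  obtain ⟨k, hk, hk'⟩ := (Nat.dvd_prime_pow Nat.prime_three).1 hd
  by_contra hlt
  have h2 : 2 ≤ k := by
    by_contra h
    have := Nat.pow_le_pow_right (show 3 > 0 by norm_num) (show k ≤ 1 by omega)
    rw [← hk'] at this
    omega
  obtain ⟨D, hD⟩ := Sylow.exists_subgroup_card_pow_prime (G := C) 3 (n := 2) (hk' ▸ pow_dvd_pow 3 h2)
  refine not_commute_nine ch (D := D.map C.subtype) ?_ ?_ hu ?_
  · rw [card_map_of_injective C.subtype_injective, hD]; norm_num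
  · rintro _ ⟨d, -, rfl⟩
    exact exp_sylow_three hcard hno S (inf_le_left (b := centralizer ({u} : Set M)) d.2)
  · rintro _ ⟨d, -, rfl⟩
    exact (mem_centralizer_singleton_iff.1 (inf_le_right (a := (S : Subgroup M)) d.2)).symm

/-- Two Sylow 3-subgroups do not meet in a subgroup of order 9. -/
theorem inter_le_three {P R : Sylow 3 M} (hne : P ≠ R) :
    Nat.card ↥((P : Subgroup M) ⊓ (R : Subgroup M) : Subgroup M) ≤ 3 := by
  classical
  have hM := noncomm hcard
  set D := (P : Subgroup M) ⊓ (R : Subgroup M)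
  have hP := card_sylow_three hcard hno P
  have hd : Nat.card D ∣ 3 ^ 3 := by
    rw [show (3 : ℕ) ^ 3 = 27 by norm_num, ← hP]; exact card_dvd_of_le inf_le_left
  obtain ⟨k, hk, hk'⟩ := (Nat.dvd_prime_pow Nat.prime_three).1 hd
  by_contra hlt
  have hD : Nat.card D = 9 := by
    rw [hk'] at hlt ⊢
    interval_cases k
    · norm_num at hlt
    · norm_num at hlt
    · norm_num
    · exfalso
      refine hne (Sylow.ext (le_antisymm ?_ ?_))
      · have h : D = (P : Subgroup M) := eq_of_le_of_card_ge inf_le_left (by rw [hP, hk']; norm_num)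
        exact h ▸ inf_le_right
      · have h : D = (R : Subgroup M) :=
          eq_of_le_of_card_ge inf_le_right (by rw [card_sylow_three hcard hno R, hk']; norm_num)
        exact h ▸ inf_le_left
  have hexp : ∀ d ∈ D, d ^ 3 = 1 := fun d hd => exp_sylow_three hcard hno P hd.1
  have hcomm : ∀ x ∈ D, ∀ y ∈ D, x * y = y * x := fun x hx y hy =>
    congrArg Subtype.val (IsPGroup.commutative_of_card_eq_prime_sq (p := 3) (by rw [hD]; norm_num)
      (⟨x, hx⟩ : D) ⟨y, hy⟩)
  -- the centraliser of `D` is a three-group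
  set C := centralizer (D : Set M) with hC
  have hDC : D ≤ C := fun x hx => mem_centralizer_iff.2 fun y hy => hcomm y hy x hx
  have hp : ∀ p : ℕ, p.Prime → p ∣ Nat.card C → p = 3 := by
    intro p hp hpC
    haveI := Fact.mk hp
    obtain ⟨⟨x, hxC⟩, hx⟩ := exists_prime_orderOf_dvd_card' p hpC
    rw [Subgroup.orderOf_mk] at hx
    rcases (primes_6048 hcard).2 p hp (hpC.trans (card_subgroup_dvd_card C)) with rfl | rfl | rfl
    · exact (not_commute_nine ch hD hexp hx fun d hd => (mem_centralizer_iff.1 hxC d hd).symm).elim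
    · rfl
    · exfalso
      obtain ⟨⟨d, hdD⟩, hdo⟩ := exists_prime_orderOf_dvd_card' (G := D) 3 (by rw [hD]; norm_num)
      rw [Subgroup.orderOf_mk] at hdo
      have hc : Commute x d := (mem_centralizer_iff.1 hxC d hdD).symm
      have := hc.orderOf_mul_eq_mul_orderOf_of_coprime (by rw [hx, hdo]; norm_num)
      rw [hx, hdo] at this
      exact hno.twentyone (x * d) (by rw [this])
  -- `D` is normal in both
  have hnorm : ∀ Q : Sylow 3 M, D ≤ (Q : Subgroup M) → (Q : Subgroup M) ≤ normalizer (D : Set M) := by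
    intro Q hQ
    have hQc := card_sylow_three hcard hno Q
    have hi : (D.subgroupOf (Q : Subgroup M)).index = 3 := by
      have h := (D.subgroupOf (Q : Subgroup M)).card_mul_index
      rw [Nat.card_congr (subgroupOfEquivOfLe hQ).toEquiv, hD, hQc] at h
      omega
    have hn : (D.subgroupOf (Q : Subgroup M)).Normal := by
      refine normal_of_index_eq_minFac_card ?_
      rw [hi, hQc]; norm_num
    exact (normal_subgroupOf_iff_le_normalizer hQ).1 hn
  have hPN := hnorm P inf_le_left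
  have hRN := hnorm R inf_le_right
  -- `C = D`
  have hCD : C = D := by
    obtain ⟨j, hj⟩ : ∃ j, Nat.card C = 3 ^ j :=
      ⟨_, Nat.eq_prime_pow_of_unique_prime_dvd Nat.card_pos.ne' fun {d} hd hdC => hp d hd hdC⟩
    obtain ⟨T, hT⟩ := (IsPGroup.of_card hj).exists_le_sylow
    by_contra hne'
    have hTC : (T : Subgroup M) = C := by
      refine (eq_of_le_of_card_ge hT ?_).symm
      rw [card_sylow_three hcard hno T, hj]
      have h9 : 9 < 3 ^ j := by
        rw [← hj, ← hD]
        refine lt_of_le_of_ne (Subgroup.card_le_of_le hDC) fun h => hne' (eq_of_le_of_card_ge hDC h.ge).symm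
      by_contra h27
      have := Nat.pow_lt_pow_iff_right (show 1 < 3 by norm_num) |>.1 (show 3 ^ 2 < 3 ^ j by simpa using h9)
      have := Nat.pow_le_pow_right (show 3 > 0 by norm_num) (show 3 ≤ j by omega)
      omega
    have heq : ∀ Q : Sylow 3 M, (Q : Subgroup M) ≤ normalizer (D : Set M) → (Q : Subgroup M) = C := by
      intro Q hQ
      have hsub : (Q : Subgroup M) ≤ normalizer (C : Set M) := fun g hg => by
        have hgD := mem_normalizer_iff.1 (hQ hg)
        rw [mem_normalizer_iff]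
        intro x
        constructor
        · intro hx
          refine mem_centralizer_iff.2 fun d hd => ?_
          have h := mem_centralizer_iff.1 hx (g⁻¹ * d * g) ((hgD _).2 (by simpa [mul_assoc] using hd))
          calc d * (g * x * g⁻¹) = g * ((g⁻¹ * d * g) * x) * g⁻¹ := by group
            _ = g * (x * (g⁻¹ * d * g)) * g⁻¹ := by rw [h]
            _ = g * x * g⁻¹ * d := by group
        · intro hx
          refine mem_centralizer_iff.2 fun d hd => ?_
          have h := mem_centralizer_iff.1 hx (g * d * g⁻¹) ((hgD d).1 hd)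
          calc d * x = g⁻¹ * ((g * d * g⁻¹) * (g * x * g⁻¹)) * g := by group
            _ = g⁻¹ * ((g * x * g⁻¹) * (g * d * g⁻¹)) * g := by rw [h]
            _ = x * d := by group
      have hpg : IsPGroup 3 ↥((Q : Subgroup M) ⊔ C) :=
        IsPGroup.to_sup_of_normal_right' Q.isPGroup' (hTC ▸ T.isPGroup') hsub
      rw [← hTC]
      exact ((Q.3 hpg le_sup_left).symm.trans (T.3 hpg (hTC ▸ le_sup_right)))
    exact hne (Sylow.ext ((heq P hPN).trans (heq R hRN).symm))
  -- the fixed points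
  have hfix : ∀ Q : Sylow 3 M, D ≤ (Q : Subgroup M) →
      ∃ z ∈ D, z ≠ 1 ∧ (∀ g ∈ (Q : Subgroup M), g * z = z * g) ∧
        (∀ x ∈ D, (∀ g ∈ (Q : Subgroup M), g * x = x * g) → x ∈ zpowers z) := by
    intro Q hQ
    have hQc := card_sylow_three hcard hno Q
    have hex : ∃ a : ↥(Q : Subgroup M), ∃ b, a * b ≠ b * a := by
      by_contra h
      push Not at h
      have hle : (Q : Subgroup M) ≤ C := fun g hg => mem_centralizer_iff.2 fun d hd =>
        congrArg Subtype.val (h ⟨d, hQ hd⟩ ⟨g, hg⟩)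
      have := Subgroup.card_le_of_le hle
      rw [hCD, hD, hQc] at this
      omega
    obtain ⟨a, b, hab⟩ := hex
    have hz3 := Heis.card_center hQc hab
    obtain ⟨⟨z, hzc⟩, hzo⟩ := exists_prime_orderOf_dvd_card' (G := center ↥(Q : Subgroup M)) 3 (dvd_of_eq hz3.symm)
    rw [Subgroup.orderOf_mk] at hzo
    have hzC : (z : M) ∈ C := mem_centralizer_iff.2 fun d hd =>
      congrArg Subtype.val (mem_center_iff.1 hzc ⟨d, hQ hd⟩)
    refine ⟨z, hCD ▸ hzC, fun e => ?_, fun g hg => congrArg Subtype.val (mem_center_iff.1 hzc ⟨g, hg⟩), ?_⟩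
    · rw [← Subgroup.orderOf_coe, e, orderOf_one] at hzo
      norm_num at hzo
    · intro x hx hxQ
      have hxc : (⟨x, hQ hx⟩ : ↥(Q : Subgroup M)) ∈ center ↥(Q : Subgroup M) :=
        mem_center_iff.2 fun g => Subtype.ext (hxQ g g.2)
      have hzp : zpowers z = center ↥(Q : Subgroup M) :=
        eq_of_le_of_card_ge (zpowers_le.2 hzc) (by rw [hz3, Nat.card_zpowers, hzo])
      rw [← hzp] at hxc
      obtain ⟨i, hi⟩ := hxc
      exact ⟨i, by simpa using congrArg Subtype.val hi⟩
  obtain ⟨z, hzD, hz1, hzP, hzP'⟩ := hfix P inf_le_left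
  obtain ⟨w, hwD, hw1, hwR, hwR'⟩ := hfix R inf_le_right
  have hzo : orderOf z = 3 := orderOf_eq_prime (hexp z hzD) hz1
  have hwo : orderOf w = 3 := orderOf_eq_prime (hexp w hwD) hw1
  have hzw : w ∉ zpowers z := by
    intro hw
    have hzR : ∀ g ∈ (R : Subgroup M), g * z = z * g := by
      have hz' : z ∈ zpowers w := by
        have h : zpowers w = zpowers z :=
          eq_of_le_of_card_ge (zpowers_le.2 hw) (by rw [Nat.card_zpowers, Nat.card_zpowers, hzo, hwo])
        exact h ▸ mem_zpowers z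
      obtain ⟨i, rfl⟩ := hz'
      exact fun g hg => (show Commute g w from hwR g hg).zpow_right i
    -- a complement inside `D`
    obtain ⟨v, hvD, hvz⟩ : ∃ v ∈ D, v ∉ zpowers z := by
      by_contra h
      push Not at h
      have := Subgroup.card_le_of_le (show D ≤ zpowers z from fun v hv => h v hv)
      rw [hD, Nat.card_zpowers, hzo] at this
      omega
    -- `g v g⁻¹ v⁻¹ ∈ ⟨z⟩` for `g` in either
    have hcom : ∀ Q : Sylow 3 M, D ≤ (Q : Subgroup M) → (∀ g ∈ (Q : Subgroup M), g * z = z * g) →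
        (∀ x ∈ D, (∀ g ∈ (Q : Subgroup M), g * x = x * g) → x ∈ zpowers z) →
        ∀ g ∈ (Q : Subgroup M), g * v * g⁻¹ * v⁻¹ ∈ zpowers z := by
      intro Q hQ hQz hQ' g hg
      have hQc := card_sylow_three hcard hno Q
      refine hQ' _ ?_ ?_
      · exact mul_mem ((mem_normalizer_iff.1 (hnorm Q hQ hg) v).1 hvD) (inv_mem hvD)
      · have hex : ∃ a : ↥(Q : Subgroup M), ∃ b, a * b ≠ b * a := by
          by_contra h
          push Not at h
          exact hvz (hQ' v hvD fun g hg => congrArg Subtype.val (h ⟨g, hg⟩ ⟨v, hQ hvD⟩))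
        obtain ⟨a, b, hab⟩ := hex
        intro k hk
        have h := mem_center_iff.1 (Heis.commutator_mem hQc hab ⟨g, hg⟩ ⟨v, hQ hvD⟩) ⟨k, hk⟩
        simpa [commutatorElement_def] using congrArg Subtype.val h
    have hPc := hcom P inf_le_left hzP hzP'
    have hRc := hcom R inf_le_right hzR (fun x hx h => by
      obtain ⟨i, hi⟩ := hwR' x hx h
      exact hi ▸ zpow_mem hw i)
    -- some element of `P` moves `v`
    obtain ⟨p, hpP, hpv⟩ : ∃ p ∈ (P : Subgroup M), p * v ≠ v * p := by
      by_contra h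
      push Not at h
      exact hvz (hzP' v hvD h)
    set e := p * v * p⁻¹ * v⁻¹ with he
    have he1 : e ≠ 1 := fun h => hpv (by
      rw [he, mul_inv_eq_one, mul_inv_eq_iff_eq_mul] at h; exact h)
    have hez : zpowers e = zpowers z := by
      refine eq_of_le_of_card_ge (zpowers_le.2 (hPc p hpP)) ?_
      rw [Nat.card_zpowers, Nat.card_zpowers, hzo]
      have hd : orderOf e ∣ 3 := by
        have h := Subgroup.orderOf_dvd_natCard _ (hPc p hpP)
        rwa [Nat.card_zpowers, hzo] at h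
      exact (((Nat.dvd_prime Nat.prime_three).1 hd).resolve_left (fun h => he1 (orderOf_eq_one_iff.1 h))).ge
    have hpe : p * e = e * p := by
      obtain ⟨i, hi⟩ : e ∈ zpowers z := hPc p hpP
      rw [← hi]
      exact (show Commute p z from hzP p hpP).zpow_right i
    have hpk : ∀ k : ℕ, p ^ k * v * (p ^ k)⁻¹ = e ^ k * v := by
      intro k
      induction k with
      | zero => simp
      | succ k ih =>
        rw [pow_succ', show p * p ^ k * v * (p * p ^ k)⁻¹ = p * (p ^ k * v * (p ^ k)⁻¹) * p⁻¹ by group, ih,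
          show p * (e ^ k * v) * p⁻¹ = p * e ^ k * p⁻¹ * (p * v * p⁻¹) by group,
          (show Commute p e from hpe).pow_right k |>.eq, mul_inv_cancel_right, pow_succ, mul_assoc (e ^ k) e v,
          show e * v = p * v * p⁻¹ by rw [he, inv_mul_cancel_right]]
    apply hne
    refine (Sylow.ext (eq_of_le_of_card_ge (fun r hr => ?_) (le_of_eq ?_))).symm
    · -- the same action on `D`
      have hrm : r * v * r⁻¹ * v⁻¹ ∈ zpowers e := hez ▸ hRc r hr
      obtain ⟨k, hk⟩ := (isOfFinOrder_of_finite e).mem_powers_iff_mem_zpowers.2 hrm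
      have hk' : r * v * r⁻¹ = e ^ k * v := by
        rw [show e ^ k = r * v * r⁻¹ * v⁻¹ from hk]; group
      set q := (p ^ k)⁻¹ * r with hq
      have hqv : q * v = v * q := by
        calc q * v = (p ^ k)⁻¹ * (r * v * r⁻¹) * r := by rw [hq]; group
          _ = (p ^ k)⁻¹ * (p ^ k * v * (p ^ k)⁻¹) * r := by rw [hk', hpk]
          _ = v * q := by rw [hq]; group
      have hqz : q * z = z * q := by
        have h1 : Commute (p ^ k)⁻¹ z := ((show Commute p z from hzP p hpP).pow_left k).inv_left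
        exact (h1.mul_left (hzR r hr)).eq
      have hle : D ≤ centralizer ({q} : Set M) := by
        have hK : ∀ x ∈ centralizer ({q} : Set M) ⊓ D, x ∈ D := fun x hx => hx.2
        by_contra hnle
        have hd : Nat.card ↥(centralizer ({q} : Set M) ⊓ D : Subgroup M) ∣ 3 ^ 2 := by
          rw [show (3 : ℕ) ^ 2 = 9 by norm_num, ← hD]; exact card_dvd_of_le inf_le_right
        obtain ⟨j, hj, hj'⟩ := (Nat.dvd_prime_pow Nat.prime_three).1 hd
        have hlt : j ≤ 1 := by
          by_contra h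
          obtain rfl : j = 2 := by omega
          exact hnle ((eq_of_le_of_card_ge inf_le_right (by rw [hD, hj']; norm_num)).ge.trans inf_le_left)
        have hzp : zpowers z = centralizer ({q} : Set M) ⊓ D := by
          refine eq_of_le_of_card_ge (zpowers_le.2 ⟨mem_centralizer_singleton_iff.2 hqz.symm, hzD⟩) ?_
          rw [hj', Nat.card_zpowers, hzo]
          exact (Nat.pow_le_pow_right (by norm_num) hlt).trans (by norm_num)
        exact hvz (hzp ▸ ⟨mem_centralizer_singleton_iff.2 hqv.symm, hvD⟩)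
      have hqD : q ∈ D := by
        rw [← hCD]
        exact mem_centralizer_iff.2 fun d hd => mem_centralizer_singleton_iff.1 (hle hd)
      have : r = p ^ k * q := by rw [hq]; group
      rw [this]
      exact mul_mem (pow_mem hpP k) hqD.1
    · rw [hP, card_sylow_three hcard hno R]
  -- the orbit
  have hmove : ∀ Q : Sylow 3 M, D ≤ (Q : Subgroup M) → ∀ x y : M, x ∈ D → y ∈ D → x ≠ 1 →
      (∀ g ∈ (Q : Subgroup M), g * x = x * g) → y ∉ zpowers x →
      (∀ d ∈ D, (∀ g ∈ (Q : Subgroup M), g * d = d * g) → d ∈ zpowers x) →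
      ∀ t ∈ zpowers x, IsConj y (y * t) := by
    intro Q hQ x y hxD hyD hx1 hQx hy hQ' t ht
    have hQc := card_sylow_three hcard hno Q
    obtain ⟨g, hgQ, hg⟩ : ∃ g ∈ (Q : Subgroup M), g * y ≠ y * g := by
      by_contra h
      push Not at h
      exact hy (hQ' y hyD h)
    have hab : (⟨g, hgQ⟩ : ↥(Q : Subgroup M)) * ⟨y, hQ hyD⟩ ≠ ⟨y, hQ hyD⟩ * ⟨g, hgQ⟩ :=
      fun e => hg (congrArg Subtype.val e)
    have hy' : (⟨y, hQ hyD⟩ : ↥(Q : Subgroup M)) ∉ center ↥(Q : Subgroup M) := fun h =>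
      hab (mem_center_iff.1 h ⟨g, hgQ⟩)
    have htQ : t ∈ (Q : Subgroup M) := by
      obtain ⟨i, rfl⟩ := ht
      exact zpow_mem (hQ hxD) i
    have htc : (⟨t, htQ⟩ : ↥(Q : Subgroup M)) ∈ center ↥(Q : Subgroup M) := mem_center_iff.2 fun k => by
      obtain ⟨i, rfl⟩ := ht
      exact Subtype.ext ((show Commute (k : M) x from hQx k k.2).zpow_right i).eq
    obtain ⟨c, hc⟩ := Heis.exists_conj_eq_mul hQc hab
      (fun s => Subtype.ext (exp_sylow_three hcard hno Q s.2)) hy' htc
    exact isConj_iff.2 ⟨c, by simpa using congrArg Subtype.val hc⟩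
  have hwz : z ∉ zpowers w := fun h => hzw <| by
    have e : zpowers z = zpowers w :=
      eq_of_le_of_card_ge (zpowers_le.2 h) (by rw [Nat.card_zpowers, Nat.card_zpowers, hzo, hwo])
    exact e ▸ mem_zpowers w
  have hzwc : Commute z w := hcomm z hzD w hwD
  have hz3 := hexp z hzD
  have hw3 := hexp w hwD
  have hmz : ∀ t ∈ zpowers z, ∀ y ∈ D, y ∉ zpowers z → IsConj y (y * t) := fun t ht y hy hy' =>
    hmove P inf_le_left z y hzD hy hz1 hzP hy' hzP' t ht
  have hmw : ∀ t ∈ zpowers w, ∀ y ∈ D, y ∉ zpowers w → IsConj y (y * t) := fun t ht y hy hy' =>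
    hmove R inf_le_right w y hwD hy hw1 hwR hy' hwR' t ht
  have hout : ∀ {x y : M}, y ∉ zpowers x → ∀ t ∈ zpowers x, y * t ∉ zpowers x := fun hy t ht h =>
    hy (by simpa using mul_mem h (inv_mem ht))
  have hsq : ∀ {x y : M}, y ^ 3 = 1 → y ∉ zpowers x → y ^ 2 ∉ zpowers x := fun {x y} hy3 hy h => hy (by
    have h2 := pow_mem h 2
    rwa [← pow_mul, show 2 * 2 = 3 + 1 from rfl, pow_succ, hy3, one_mul] at h2)
  -- `z ~ z w`, `z ~ z w²`, `z w ~ z² w`, `z² w ~ w`, `w ~ z² ...`
  have c1 : IsConj z (z * w) := hmw w (mem_zpowers w) z hzD hwz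
  have c2 : IsConj z (z * w ^ 2) := hmw _ (pow_mem (mem_zpowers w) 2) z hzD hwz
  have c3 : IsConj w (w * z) := hmz z (mem_zpowers z) w hwD hzw
  have c4 : IsConj w (w * z ^ 2) := hmz _ (pow_mem (mem_zpowers z) 2) w hwD hzw
  have c5 : IsConj (w ^ 2) (w ^ 2 * z) := hmz z (mem_zpowers z) _ (pow_mem hwD 2) (hsq hw3 hzw)
  have c6 : IsConj (w ^ 2) (w ^ 2 * z ^ 2) := hmz _ (pow_mem (mem_zpowers z) 2) _ (pow_mem hwD 2) (hsq hw3 hzw)
  have c7 : IsConj (z ^ 2) (z ^ 2 * w) := hmw w (mem_zpowers w) _ (pow_mem hzD 2) (hsq hz3 hwz)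
  have q1 : IsConj z w := c1.trans (by rw [hzwc.eq]; exact c3.symm)
  have q2 : IsConj z (w ^ 2) := c2.trans (by rw [(hzwc.pow_right 2).eq]; exact c5.symm)
  have q3 : IsConj z (z ^ 2) :=
    q1.trans (c4.trans (by rw [(hzwc.symm.pow_right 2).eq]; exact c7.symm))
  -- the value
  set f : M → ℂ := (ch.χ6 : M → ℂ)
  have hf : ∀ {a b : M}, IsConj a b → f a = f b := fun h => irr_apply_eq_of_isConj h ch.χ6
  obtain ⟨m, hm⟩ := sum_nine ch hz3 hw3 hzwc
  have e1 : f (z * w) = f z := (hf c1).symm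
  have e2 : f (z * w ^ 2) = f z := (hf c2).symm
  have e3 : f (z ^ 2 * w) = f z := (hf c7).symm.trans (hf q3).symm
  have e4 : f (z ^ 2 * w ^ 2) = f z := by
    rw [((hzwc.pow_left 2).pow_right 2).eq]; exact (hf c6).symm.trans (hf q2).symm
  change f 1 + f z + f (z ^ 2) + f w + f (z * w) + f (z ^ 2 * w) + f (w ^ 2) + f (z * w ^ 2) +
      f (z ^ 2 * w ^ 2) = _ at hm
  rw [← hf q3, ← hf q2, ← hf q1, e1, e2, e3, e4, show f 1 = 6 from ch.deg6] at hm
  obtain ⟨A, hA⟩ : ∃ A : ℤ, f z = A :=
    CfsgLib.Coherence.exists_int_of_forall_pow_eq (IsIrrCharacter.isGeneralizedCharacter ch.χ6.2) z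
      fun t ht => by
        rw [hzo] at ht
        rw [← pow_mod_orderOf, hzo]
        have h12 : t % 3 = 1 ∨ t % 3 = 2 := by
          have h0 : t % 3 ≠ 0 := fun h => by
            have h' := Nat.dvd_gcd (Nat.dvd_of_mod_eq_zero h) (dvd_refl 3)
            rw [ht.gcd_eq_one] at h'
            norm_num at h'
          omega
        rcases h12 with h | h <;> rw [h]
        · rw [pow_one]
        · exact (hf q3).symm
  obtain ⟨d, l, hd', hval, hl, -, -⟩ :=
    exists_roots_det (IsIrrCharacter.isCharacter ch.χ6.2) three_ne_zero hz3 fun g => lin_trivial hM g z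
  have hd6 : d = 6 := by rw [ch.deg6] at hd'; exact_mod_cast hd'.symm
  have hle : (A : ℝ) ≤ 6 := by
    have h := congrArg Complex.re hval
    rw [show (ch.χ6 : M → ℂ) z = (A : ℂ) from hA, Complex.re_sum] at h
    simp only [Complex.intCast_re] at h
    rw [h]
    calc ∑ i, (l i).re ≤ ∑ _i : Fin d, (1 : ℝ) := Finset.sum_le_sum fun i _ =>
          le_trans (Complex.re_le_norm _) (le_of_eq (Complex.norm_eq_one_of_pow_eq_one (hl i) three_ne_zero))
      _ = 6 := by simp [hd6]
  have hle' : A ≤ 6 := by exact_mod_cast hle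
  rw [hA] at hm
  have e : 6 + 8 * A = 9 * (m : ℤ) := by
    apply Int.cast_injective (α := ℂ); push_cast; linear_combination hm
  have hA6 : A = 6 := by omega
  exact hz1 (eq_one_of_apply_eq ch.χ6 ch.ne6 (show f z = f 1 by rw [hA, hA6, show f 1 = 6 from ch.deg6]; norm_num))

/-- The normaliser of a Sylow 3-subgroup. -/
theorem card_normalizer_three (S : Sylow 3 M) :
    Nat.card ↥(normalizer ((S : Subgroup M) : Set M)) = 216 ∧ Nat.card (Sylow 3 M) = 28 := by
  have hS := card_sylow_three hcard hno S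
  have hmul := card_sylow_mul_card_normalizer S
  rw [hcard] at hmul
  have hmod : Nat.card (Sylow 3 M) ≡ 1 [MOD 3 ^ 2] := by
    by_contra h
    obtain ⟨P, R, hPR, hle⟩ := exists_sylow_inter 3 2 h
    have h3 := inter_le_three hcard hno ch hPR
    have hi := ((R : Subgroup M).subgroupOf (P : Subgroup M)).card_mul_index
    rw [card_sylow_three hcard hno P, ← inf_subgroupOf_left,
      Nat.card_congr (subgroupOfEquivOfLe (inf_le_left)).toEquiv] at hi
    rw [← inf_subgroupOf_left] at hle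
    generalize ((P : Subgroup M) ⊓ (R : Subgroup M)).subgroupOf (P : Subgroup M) = X at hi hle
    norm_num at hle
    nlinarith
  have hdvd : Nat.card (Sylow 3 M) ∣ 224 := by
    have h27 : 27 ∣ Nat.card ↥(normalizer ((S : Subgroup M) : Set M)) := hS ▸ card_dvd_of_le le_normalizer
    obtain ⟨k, hk⟩ := h27
    rw [hk] at hmul
    exact ⟨k, by linarith⟩
  have hne : Nat.card (Sylow 3 M) ≠ 1 := fun h => by
    have := one_lt_card_sylow (noncomm hcard) (p := 3) (by rw [hcard]; norm_num)
    omega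
  unfold Nat.ModEq at hmod
  have hmem := Nat.mem_divisors.2 ⟨hdvd, (by norm_num : (224 : ℕ) ≠ 0)⟩
  rw [show Nat.divisors 224 = {1, 2, 4, 7, 8, 14, 16, 28, 32, 56, 112, 224} by decide +kernel] at hmem
  simp only [Finset.mem_insert, Finset.mem_singleton] at hmem
  have h28 : Nat.card (Sylow 3 M) = 28 := by
    rcases hmem with h | h | h | h | h | h | h | h | h | h | h | h <;> rw [h] at hmod hne ⊢ <;> simp_all
  rw [h28] at hmul
  exact ⟨by omega, h28⟩

/-- The Sylow 3-subgroups are non-abelian. -/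
theorem sylow_noncomm (S : Sylow 3 M) : ∃ a b : ↥(S : Subgroup M), a * b ≠ b * a := by
  classical
  by_contra hab
  push Not at hab
  haveI : Fact (Nat.Prime 2) := ⟨Nat.prime_two⟩
  have hM := noncomm hcard
  have hS := card_sylow_three hcard hno S
  have hexp := fun {s : M} (hs : s ∈ (S : Subgroup M)) => exp_sylow_three hcard hno S hs
  have hcomm : ∀ x ∈ (S : Subgroup M), ∀ y ∈ (S : Subgroup M), x * y = y * x := fun x hx y hy =>
    congrArg Subtype.val (hab ⟨x, hx⟩ ⟨y, hy⟩)
  set N := normalizer ((S : Subgroup M) : Set M) with hN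
  obtain ⟨hNc, -⟩ := card_normalizer_three hcard hno ch S
  obtain ⟨T⟩ := (inferInstance : Nonempty (Sylow 2 N))
  have hT : Nat.card ↥(T : Subgroup N) = 8 :=
    (card_sylow_eq (p := 2) (a := 3) (m := 27) (by rw [hNc]; norm_num) (by norm_num) T).trans (by norm_num)
  haveI : Nontrivial ↥(T : Subgroup N) := Finite.one_lt_card_iff_nontrivial.1 (by omega)
  haveI hcn := T.isPGroup'.center_nontrivial
  obtain ⟨⟨z0, hz0c⟩, hz0⟩ := exists_prime_orderOf_dvd_card' (G := center ↥(T : Subgroup N)) 2 (by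
    obtain ⟨k, hk⟩ := (T.isPGroup'.to_subgroup (center _)).exists_card_eq
    have h1 : 1 < Nat.card (center ↥(T : Subgroup N)) := Finite.one_lt_card_iff_nontrivial.2 hcn
    rw [hk] at h1 ⊢
    exact dvd_pow_self 2 (fun h => by rw [h] at h1; norm_num at h1))
  rw [Subgroup.orderOf_mk] at hz0
  have hzT : ∀ t : ↥(T : Subgroup N), Commute ((t : N) : M) ((z0 : N) : M) := fun t =>
    congrArg (fun x : ↥(T : Subgroup N) => ((x : N) : M)) (mem_center_iff.1 hz0c t)
  set z : M := ((z0 : N) : M) with hz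
  have hzo : orderOf z = 2 := by rw [hz, Subgroup.orderOf_coe, Subgroup.orderOf_coe, hz0]
  have hzS : ∀ s ∈ (S : Subgroup M), z * s * z⁻¹ ∈ (S : Subgroup M) := fun s hs =>
    (mem_normalizer_iff.1 (z0 : N).2 s).1 hs
  have hz2 : z * z = 1 := CfsgLib.Involutions.mul_self_eq_one hzo
  -- products `s · s^z` are fixed
  have hfix : ∀ s ∈ (S : Subgroup M), s * (z * s * z⁻¹) ∈ centralizer ({z} : Set M) := fun s hs => by
    refine mem_centralizer_singleton_iff.2 ?_
    calc s * (z * s * z⁻¹) * z = s * z * s := by group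
      _ = (z * z) * (s * z * s) := by rw [hz2, one_mul]
      _ = z * ((z * s * z⁻¹) * (z * z) * s) := by group
      _ = z * (s * (z * s * z⁻¹)) := by rw [hz2, mul_one, hcomm _ (hzS s hs) s hs]
  set C := (S : Subgroup M) ⊓ centralizer ({z} : Set M) with hC
  have hC3 : Nat.card C ≤ 3 := card_inf_centralizer_le hcard hno ch S hzo
  -- the inverted elements
  let W : Subgroup M :=
    { carrier := {s | s ∈ (S : Subgroup M) ∧ z * s * z⁻¹ = s⁻¹}
      one_mem' := ⟨one_mem _, by group⟩
      mul_mem' := fun {a b} ha hb => ⟨mul_mem ha.1 hb.1, by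
        rw [show z * (a * b) * z⁻¹ = (z * a * z⁻¹) * (z * b * z⁻¹) by group, ha.2, hb.2, ← mul_inv_rev,
          hcomm b hb.1 a ha.1]⟩
      inv_mem' := fun {a} ha => ⟨inv_mem ha.1, by
        rw [show z * a⁻¹ * z⁻¹ = (z * a * z⁻¹)⁻¹ by group, ha.2]⟩ }
  let θ : ↥(S : Subgroup M) →* C :=
    { toFun := fun s => ⟨(s : M) * (z * s * z⁻¹), mul_mem s.2 (hzS s s.2), hfix s s.2⟩
      map_one' := Subtype.ext (by show (1 : M) * (z * 1 * z⁻¹) = 1; group)
      map_mul' := fun a b => Subtype.ext (by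
        show (a : M) * b * (z * ((a : M) * b) * z⁻¹) = a * (z * a * z⁻¹) * (b * (z * b * z⁻¹))
        calc (a : M) * b * (z * ((a : M) * b) * z⁻¹) = a * (b * (z * a * z⁻¹)) * (z * b * z⁻¹) := by group
          _ = a * (z * a * z⁻¹) * (b * (z * b * z⁻¹)) := by
            rw [hcomm b b.2 _ (hzS a a.2)]; simp only [mul_assoc]) }
  have hker : θ.ker.map (S : Subgroup M).subtype = W := by
    ext s
    constructor
    · rintro ⟨x, hx, rfl⟩
      exact ⟨x.2, (inv_eq_of_mul_eq_one_right (congrArg Subtype.val hx)).symm⟩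
    · rintro ⟨hs, hinv⟩
      exact ⟨⟨s, hs⟩, Subtype.ext (by show s * (z * s * z⁻¹) = 1; rw [hinv, mul_inv_cancel]), rfl⟩
  have hW9 : 27 ≤ Nat.card W * Nat.card C := by
    have h := θ.ker.card_mul_index
    rw [index_ker, hS] at h
    rw [← hker, card_map_of_injective (S : Subgroup M).subtype_injective]
    calc 27 = Nat.card θ.ker * Nat.card θ.range := h.symm
      _ ≤ _ := Nat.mul_le_mul_left _ (Nat.card_le_card_of_injective _ Subtype.val_injective)
  have hWnot : ¬ (∀ s ∈ (S : Subgroup M), z * s * z⁻¹ = s⁻¹) := fun h =>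
    not_all_inverted ch hM hS (fun s hs => hexp hs) fun s hs _ => ⟨z, hzo, h s hs⟩
  have hWdvd : Nat.card W ∣ 3 ^ 3 := by
    rw [show (3 : ℕ) ^ 3 = 27 by norm_num, ← hS]
    exact card_dvd_of_le (fun s (hs : s ∈ W) => hs.1)
  obtain ⟨k, hk, hk'⟩ := (Nat.dvd_prime_pow Nat.prime_three).1 hWdvd
  have hWC : Nat.card W = 9 ∧ Nat.card C = 3 := by
    have hlt : k ≠ 3 := fun h => hWnot fun s hs => by
      have he : W = (S : Subgroup M) := eq_of_le_of_card_ge (fun s (hs : s ∈ W) => hs.1) (by rw [hS, hk', h]; norm_num)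
      exact (he ▸ hs : s ∈ W).2
    have hCpos : 0 < Nat.card C := Nat.card_pos
    rw [hk'] at hW9 ⊢
    interval_cases k <;> norm_num [-Nat.card_eq_fintype_card] at hW9 ⊢ <;> omega
  obtain ⟨⟨c, hcC⟩, hco⟩ := exists_prime_orderOf_dvd_card' (G := C) 3 (dvd_of_eq hWC.2.symm)
  rw [Subgroup.orderOf_mk] at hco
  have hcS : c ∈ (S : Subgroup M) := hcC.1
  have hc3 : c ^ 3 = 1 := hexp hcS
  have hcz : z * c * z⁻¹ = c := mul_inv_eq_iff_eq_mul.2 (mem_centralizer_singleton_iff.1 hcC.2).symm
  have hCz : zpowers c = C := eq_of_le_of_card_ge (zpowers_le.2 hcC) (by rw [hWC.2, Nat.card_zpowers, hco])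
  set f : M → ℂ := (ch.χ6 : M → ℂ)
  have hf : ∀ {a b : M}, IsConj a b → f a = f b := fun h => irr_apply_eq_of_isConj h ch.χ6
  have hsquare : ∀ {s u : M}, s ^ 3 = 1 → u * s * u⁻¹ = s⁻¹ → f (s ^ 2) = f s := fun {s u} hs hus =>
    (hf (isConj_iff.2 ⟨u, by
      rw [hus, inv_eq_of_mul_eq_one_right (b := s ^ 2) (by rw [← pow_succ']; exact hs)]⟩)).symm
  -- some element of `W` is moved regularly or `f` is constant
  have hval : ∀ w ∈ W, w ≠ 1 → (∃ t : ↥(T : Subgroup N), t ≠ 1 ∧ ((t : N) : M) * w * ((t : N) : M)⁻¹ = w) →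
      f w = f c := by
    rintro w hw hw1 ⟨t, ht1, htw⟩
    obtain ⟨k, hk⟩ : ∃ k, orderOf t = 2 ^ (k + 1) := by
      obtain ⟨k, hk⟩ := T.isPGroup' t
      obtain ⟨j, -, hj⟩ := (Nat.dvd_prime_pow Nat.prime_two).1 (orderOf_dvd_of_pow_eq_one hk)
      rcases j with _ | j
      · exact absurd (orderOf_eq_one_iff.1 (by simpa using hj)) ht1
      · exact ⟨j, hj⟩
    set u : M := ((t : N) : M) ^ (2 ^ k) with hu
    have huo : orderOf u = 2 := by
      rw [hu, orderOf_pow, Subgroup.orderOf_coe, Subgroup.orderOf_coe, hk,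
        Nat.gcd_eq_right (pow_dvd_pow 2 k.le_succ), pow_succ, Nat.mul_div_cancel_left _ (by positivity)]
    have huw : u * w * u⁻¹ = w := by
      have h : Commute ((t : N) : M) w := mul_inv_eq_iff_eq_mul.1 htw
      exact mul_inv_eq_iff_eq_mul.2 (h.pow_left _).eq
    have huz : Commute u z := (hzT t).pow_left _
    have huS : u * c * u⁻¹ ∈ (S : Subgroup M) :=
      (mem_normalizer_iff.1 (hu ▸ pow_mem (t : N).2 _) c).1 hcS
    have hucC : u * c * u⁻¹ ∈ C := by
      refine ⟨huS, mem_centralizer_singleton_iff.2 ?_⟩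
      calc u * c * u⁻¹ * z = u * c * (u⁻¹ * z) := by group
        _ = u * c * (z * u⁻¹) := by rw [huz.inv_left.eq]
        _ = u * (z * c) * u⁻¹ := by rw [← mem_centralizer_singleton_iff.1 hcC.2]; group
        _ = z * (u * c * u⁻¹) := by rw [← mul_assoc u, huz.eq]; group
    have hucinv : u * c * u⁻¹ = c⁻¹ := by
      rw [← hCz] at hucC
      obtain ⟨j, hj⟩ := (isOfFinOrder_of_finite c).mem_powers_iff_mem_zpowers.2 hucC
      have hj' : u * c * u⁻¹ = c ^ (j % 3) := by rw [← hco, pow_mod_orderOf]; exact hj.symm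
      have hj3 := Nat.mod_lt j (show 3 > 0 by norm_num)
      interval_cases h : j % 3
      · rw [pow_zero, conj_eq_one_iff] at hj'
        rw [hj', orderOf_one] at hco
        norm_num at hco
      · exfalso
        rw [pow_one] at hj'
        have hle : W ⊔ C ≤ (S : Subgroup M) := sup_le (fun s (hs : s ∈ W) => hs.1) inf_le_left
        -- `u` centralises a subgroup of order at least `9`
        have hcard' := card_inf_centralizer_le hcard hno ch S huo
        have hsub : C ⊔ zpowers w ≤ (S : Subgroup M) ⊓ centralizer ({u} : Set M) := by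
          refine sup_le ?_ (zpowers_le.2 ⟨hw.1, mem_centralizer_singleton_iff.2 (mul_inv_eq_iff_eq_mul.1 huw).symm⟩)
          rw [← hCz]
          exact zpowers_le.2 ⟨hcS, mem_centralizer_singleton_iff.2 (mul_inv_eq_iff_eq_mul.1 hj').symm⟩
        have heq : C = C ⊔ zpowers w :=
          eq_of_le_of_card_ge le_sup_left (le_trans (Subgroup.card_le_of_le hsub) (hcard'.trans hWC.2.ge))
        have hwC : w ∈ C := heq ▸ mem_sup_right (mem_zpowers w)
        have h1 := mem_centralizer_singleton_iff.1 hwC.2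
        have h2 : w⁻¹ = w := hw.2 ▸ mul_inv_eq_iff_eq_mul.2 h1.symm
        have h3 : w ^ 2 = 1 := by rw [pow_two]; nth_rw 1 [← h2]; exact inv_mul_cancel w
        exact hw1 (by have := hexp hw.1; rw [pow_succ, h3, one_mul] at this; exact this)
      · rw [hj', inv_eq_of_mul_eq_one_right (by rw [← pow_succ']; exact hc3)]
    set v := u * z with hv
    have hvo : orderOf v = 2 := CfsgLib.Involutions.orderOf_eq_two_iff.2 ⟨by
        rw [hv, mul_assoc, ← mul_assoc z u z, ← huz.eq, mul_assoc u z z, hz2, mul_one]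
        exact CfsgLib.Involutions.mul_self_eq_one huo, fun h => by
        have huz' : u = z := by rw [← mul_left_inj z]; exact h.trans hz2.symm
        have h2 : w⁻¹ = w := hw.2 ▸ huz' ▸ huw
        have h3 : w ^ 2 = 1 := by rw [pow_two]; nth_rw 1 [← h2]; exact inv_mul_cancel w
        exact hw1 (by have := hexp hw.1; rw [pow_succ, h3, one_mul] at this; exact this)⟩
    have hvc : v * c * v⁻¹ = c⁻¹ := by
      rw [hv, show u * z * c * (u * z)⁻¹ = u * (z * c * z⁻¹) * u⁻¹ by group, hcz, hucinv]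
    have hvw : v * w * v⁻¹ = w⁻¹ := by
      rw [hv, show u * z * w * (u * z)⁻¹ = u * (z * w * z⁻¹) * u⁻¹ by group, hw.2,
        show u * w⁻¹ * u⁻¹ = (u * w * u⁻¹)⁻¹ by group, huw]
    have hw3 := hexp hw.1
    have hcw : Commute c w := hcomm c hcS w hw.1
    have hvcw : v * (c * w) * v⁻¹ = (c * w)⁻¹ := by
      rw [show v * (c * w) * v⁻¹ = (v * c * v⁻¹) * (v * w * v⁻¹) by group, hvc, hvw, ← mul_inv_rev, hcw.eq]
    have hcw3 : (c * w) ^ 3 = 1 := by rw [hcw.mul_pow, hc3, hw3, one_mul]
    have e1 : f (c ^ 2) = f c := hsquare hc3 hvc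
    have e2 : f (w ^ 2) = f w := hsquare hw3 hvw
    have e3 : f (c ^ 2 * w ^ 2) = f (c * w) := by rw [← hcw.mul_pow]; exact hsquare hcw3 hvcw
    have e4 : f (c * w ^ 2) = f (c * w) := by
      refine (hf (isConj_iff.2 ⟨z, ?_⟩)).symm
      rw [show z * (c * w) * z⁻¹ = (z * c * z⁻¹) * (z * w * z⁻¹) by group, hcz, hw.2,
        inv_eq_of_mul_eq_one_right (by rw [← pow_succ']; exact hw3)]
    have e5 : f (c ^ 2 * w) = f (c * w) := by
      rw [← e3]
      refine (hf (isConj_iff.2 ⟨z, ?_⟩))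
      rw [show z * (c ^ 2 * w) * z⁻¹ = (z * c * z⁻¹) ^ 2 * (z * w * z⁻¹) by rw [conj_pow]; group, hcz, hw.2,
        inv_eq_of_mul_eq_one_right (by rw [← pow_succ']; exact hw3)]
    obtain ⟨m, hm⟩ := sum_nine ch hc3 hw3 hcw
    rw [show (ch.χ6 : M → ℂ) 1 = 6 from ch.deg6] at hm
    change 6 + f c + f (c ^ 2) + f w + f (c * w) + f (c ^ 2 * w) + f (w ^ 2) + f (c * w ^ 2) +
      f (c ^ 2 * w ^ 2) = _ at hm
    rw [e1, e2, e3, e4, e5] at hm
    have hc1 : c ≠ 1 := fun h => by rw [h, orderOf_one] at hco; norm_num at hco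
    have hcw1 : c * w ≠ 1 := fun h => by
      have hwc : w = c⁻¹ := (inv_eq_of_mul_eq_one_right h).symm
      have h2 := hw.2
      rw [hwc, show z * c⁻¹ * z⁻¹ = (z * c * z⁻¹)⁻¹ by group, hcz, inv_inv] at h2
      have h3 : c ^ 2 = 1 := by rw [pow_two]; nth_rw 1 [← h2]; exact inv_mul_cancel c
      exact hc1 (by rw [pow_succ, h3, one_mul] at hc3; exact hc3)
    rcases value_inverted ch hM hw3 hw1 hvo hvw with hA | hA <;>
      rcases value_inverted ch hM hc3 hc1 hvo hvc with hB | hB <;>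
      rcases value_inverted ch hM hcw3 hcw1 hvo hvcw with hD | hD <;>
      change f _ = _ at hA hB hD <;> rw [hA, hB] <;> rw [hA, hB, hD] at hm <;> norm_num at hm ⊢ <;>
      (exfalso; first
        | (have : (6 : ℕ) = 9 * m := by exact_mod_cast hm
           omega)
        | (have : (12 : ℕ) = 9 * m := by exact_mod_cast hm
           omega)
        | (have : (18 : ℕ) = 9 * m := by exact_mod_cast hm
           omega)
        | (have : (24 : ℕ) = 9 * m := by exact_mod_cast hm
           omega)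
        | (have : (30 : ℕ) = 9 * m := by exact_mod_cast hm
           omega))
  -- `f` is constant on `W`
  obtain ⟨w0, hw0, hw01, hconst⟩ : ∃ w0 ∈ W, w0 ≠ 1 ∧ ∀ w ∈ W, w ≠ 1 → f w = f w0 := by
    obtain ⟨⟨w1, hw1W⟩, hw1o⟩ := exists_prime_orderOf_dvd_card' (G := W) 3 (by rw [hWC.1]; norm_num)
    rw [Subgroup.orderOf_mk] at hw1o
    by_cases hreg : ∀ w ∈ W, w ≠ 1 → ∃ t : ↥(T : Subgroup N), t ≠ 1 ∧ ((t : N) : M) * w * ((t : N) : M)⁻¹ = w
    · have hw11 : w1 ≠ 1 := fun h => by rw [h, orderOf_one] at hw1o; norm_num at hw1o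
      exact ⟨w1, hw1W, hw11, fun w hw h => (hval w hw h (hreg w hw h)).trans (hval w1 hw1W hw11 (hreg w1 hw1W hw11)).symm⟩
    · push Not at hreg
      obtain ⟨w0, hw0, hw01, hfree⟩ := hreg
      refine ⟨w0, hw0, hw01, fun w hw hw1 => ?_⟩
      have htW : ∀ t : ↥(T : Subgroup N), ((t : N) : M) * w0 * ((t : N) : M)⁻¹ ∈ W := fun t => by
        set g : M := ((t : N) : M)
        have hgz : Commute g z := hzT t
        refine ⟨(mem_normalizer_iff.1 (t : N).2 w0).1 hw0.1, ?_⟩
        calc z * (g * w0 * g⁻¹) * z⁻¹ = (z * g) * w0 * (z * g)⁻¹ := by group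
          _ = g * (z * w0 * z⁻¹) * g⁻¹ := by rw [← hgz.eq]; group
          _ = (g * w0 * g⁻¹)⁻¹ := by rw [hw0.2]; group
      let ψ : ↥(T : Subgroup N) → {x : W // x ≠ 1} := fun t =>
        ⟨⟨_, htW t⟩, fun h => hw01 (conj_eq_one_iff.1 (congrArg Subtype.val h))⟩
      have hinj : Function.Injective ψ := by
        intro t t' h
        have h' : ((t : N) : M) * w0 * ((t : N) : M)⁻¹ = ((t' : N) : M) * w0 * ((t' : N) : M)⁻¹ :=
          congrArg (fun x : {x : W // x ≠ 1} => ((x : W) : M)) h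
        by_contra hne
        refine hfree (t⁻¹ * t') (fun e => hne (inv_mul_eq_one.1 e)) ?_
        show ((t : N) : M)⁻¹ * ((t' : N) : M) * w0 * (((t : N) : M)⁻¹ * ((t' : N) : M))⁻¹ = w0
        rw [show ((t : N) : M)⁻¹ * ((t' : N) : M) * w0 * (((t : N) : M)⁻¹ * ((t' : N) : M))⁻¹ =
          ((t : N) : M)⁻¹ * (((t' : N) : M) * w0 * ((t' : N) : M)⁻¹) * ((t : N) : M) by group, ← h']
        group
      haveI := Fintype.ofFinite W
      haveI := Fintype.ofFinite ↥(T : Subgroup N)
      have hbij : Function.Bijective ψ := by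
        rw [Fintype.bijective_iff_injective_and_card]
        refine ⟨hinj, ?_⟩
        rw [← Nat.card_eq_fintype_card, hT, Fintype.card_subtype_compl, ← Nat.card_eq_fintype_card, hWC.1,
          Fintype.card_subtype_eq]
      obtain ⟨t, ht⟩ := hbij.2 ⟨⟨w, hw⟩, fun h => hw1 (congrArg Subtype.val h)⟩
      have ht' : ((t : N) : M) * w0 * ((t : N) : M)⁻¹ = w := congrArg (fun x : {x : W // x ≠ 1} => ((x : W) : M)) ht
      exact (hf (isConj_iff.2 ⟨_, ht'⟩)).symm
  obtain ⟨m, hm⟩ := exists_nat_sum (IsIrrCharacter.isCharacter ch.χ6.2) W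
  have hsum : ∀ w : W, f w = f w0 + if w = 1 then 6 - f w0 else 0 := fun w => by
    split_ifs with h
    · rw [h, OneMemClass.coe_one, show f 1 = 6 from ch.deg6]; ring
    · rw [hconst w w.2 fun e => h (Subtype.ext e), add_zero]
  change ∑ w : W, f w = _ at hm
  rw [Finset.sum_congr rfl fun w _ => hsum w, Finset.sum_add_distrib, Finset.sum_const, Finset.sum_ite_eq',
    if_pos (Finset.mem_univ _), Finset.card_univ, ← Nat.card_eq_fintype_card, hWC.1] at hm
  rcases value_inverted ch hM (hexp hw0.1) hw01 hzo hw0.2 with h | h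
  · rw [show f w0 = 0 from h] at hm
    have : (6 : ℕ) = 9 * m := by
      apply Nat.cast_injective (R := ℂ); push_cast; simpa using hm
    omega
  · rw [show f w0 = 3 from h] at hm
    have : (30 : ℕ) = 9 * m := by
      apply Nat.cast_injective (R := ℂ); push_cast; simp only [nsmul_eq_mul] at hm; push_cast at hm
      linear_combination hm
    omega

end sylow

end CfsgLib.GTwoTwo
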