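import Cfsg.Agent.Lib.SmallGroups.Basic
import Cfsg.Agent.Lib.Involutions.Basic

/-!
Self-centralising elements of order seven.
-/

set_option autoImplicit false
set_option linter.style.haveILetI false

open Subgroup

namespace CfsgLib.GTwoTwo

universe u

variable (G : Type u) [Group G]

/-- No element has order divisible by `9`, `14` or `21`. -/
structure NoOrders : Prop where
  nine : ∀ g : G, ¬ 9 ∣ orderOf g
  fourteen : ∀ g : G, ¬ 14 ∣ orderOf g
  twentyone : ∀ g : G, ¬ 21 ∣ orderOf g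

variable {G}

theorem NoOrders.subgroup (h : NoOrders G) (H : Subgroup G) : NoOrders H :=
  ⟨fun g => by rw [← Subgroup.orderOf_coe]; exact h.nine _, fun g => by rw [← Subgroup.orderOf_coe]; exact h.fourteen _,
    fun g => by rw [← Subgroup.orderOf_coe]; exact h.twentyone _⟩

variable [Finite G] (h : NoOrders G)
include h

theorem NoOrders.quotient (N : Subgroup G) [N.Normal] : NoOrders (G ⧸ N) := by
  have key : ∀ g : G, orderOf (g : G ⧸ N) ∣ orderOf g := fun g =>
    orderOf_map_dvd (QuotientGroup.mk' N) g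
  refine ⟨fun x => ?_, fun x => ?_, fun x => ?_⟩
  all_goals obtain ⟨g, rfl⟩ := QuotientGroup.mk_surjective x
  · exact fun hd => h.nine g (hd.trans (key g))
  · exact fun hd => h.fourteen g (hd.trans (key g))
  · exact fun hd => h.twentyone g (hd.trans (key g))

theorem NoOrders.three_elements {s : G} {k : ℕ} (hs : s ^ 3 ^ k = 1) : s ^ 3 = 1 := by
  obtain ⟨j, -, hj⟩ := (Nat.dvd_prime_pow Nat.prime_three).1 (orderOf_dvd_of_pow_eq_one hs)
  have : j ≤ 1 := by
    by_contra h2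
    exact h.nine s (hj ▸ (show (9 : ℕ) = 3 ^ 2 by norm_num) ▸ pow_dvd_pow 3 (by omega))
  refine orderOf_dvd_iff_pow_eq_one.1 (hj ▸ ?_)
  exact (pow_dvd_pow 3 this).trans (by norm_num)

/-- An element of order 7 generates its centraliser. -/
theorem NoOrders.card_centralizer_seven (h49 : ¬ 49 ∣ Nat.card G)
    (hp : ∀ p : ℕ, p.Prime → p ∣ Nat.card G → p = 2 ∨ p = 3 ∨ p = 7) {y : G} (hy : orderOf y = 7) :
    Nat.card ↥(centralizer ({y} : Set G)) = 7 := by
  set C := centralizer ({y} : Set G)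
  have h7 : 7 ∣ Nat.card C :=
    hy ▸ Subgroup.orderOf_dvd_natCard _ (mem_centralizer_singleton_iff.2 rfl)
  obtain ⟨m, hm⟩ := h7
  suffices m = 1 by rw [hm, this]
  by_contra h1
  obtain ⟨p, hpp, hpm⟩ := Nat.exists_prime_and_dvd h1
  have hpC : p ∣ Nat.card C := hm ▸ dvd_mul_of_dvd_right hpm 7
  have : Fact p.Prime := ⟨hpp⟩
  rcases hp p hpp (hpC.trans (card_subgroup_dvd_card C)) with rfl | rfl | rfl
  rotate_left 2
  · exact h49 ((mul_dvd_mul_left 7 hpm).trans (hm ▸ card_subgroup_dvd_card C))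
  all_goals
    obtain ⟨⟨c, hc⟩, hco⟩ := exists_prime_orderOf_dvd_card' _ hpC
    rw [Subgroup.orderOf_mk] at hco
    have hcy : Commute c y := mem_centralizer_singleton_iff.1 hc
    have ho := hcy.orderOf_mul_eq_mul_orderOf_of_coprime (by rw [hco, hy]; norm_num)
    rw [hco, hy] at ho
  · exact h.fourteen (c * y) (by rw [ho])
  · exact h.twentyone (c * y) (by rw [ho])

theorem NoOrders.centralizer_sylow (h49 : ¬ 49 ∣ Nat.card G)
    (hp : ∀ p : ℕ, p.Prime → p ∣ Nat.card G → p = 2 ∨ p = 3 ∨ p = 7) [Fact (Nat.Prime 7)] (P : Sylow 7 G)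
    (hP : Nat.card ↥(P : Subgroup G) = 7) :
    centralizer ((P : Subgroup G) : Set G) = (P : Subgroup G) := by
  obtain ⟨⟨y, hyP⟩, hyo⟩ := exists_prime_orderOf_dvd_card' (G := (P : Subgroup G)) 7 (dvd_of_eq hP.symm)
  rw [Subgroup.orderOf_mk] at hyo
  have : IsCyclic (P : Subgroup G) := isCyclic_of_prime_card hP
  have : IsMulCommutative (P : Subgroup G) := ⟨⟨fun a b => IsCyclic.commGroup.mul_comm a b⟩⟩
  refine (eq_of_le_of_card_ge (P : Subgroup G).le_centralizer ?_).symm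
  calc Nat.card ↥(centralizer ((P : Subgroup G) : Set G)) ≤ Nat.card ↥(centralizer ({y} : Set G)) :=
        Subgroup.card_le_of_le (Subgroup.centralizer_le (Set.singleton_subset_iff.2 hyP))
    _ = Nat.card ↥(P : Subgroup G) := by rw [h.card_centralizer_seven h49 hp hyo, hP]

omit h in
theorem inv_pow_odd {n y : G} (hinv : n * y * n⁻¹ = y⁻¹) : ∀ k : ℕ, Odd k → n ^ k * y * (n ^ k)⁻¹ = y⁻¹ := by
  rintro _ ⟨j, rfl⟩
  induction j with
  | zero => simpa using hinv
  | succ j ih =>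
    have h2 : n ^ 2 * y * (n ^ 2)⁻¹ = y := by
      rw [pow_two, show n * n * y * (n * n)⁻¹ = n * (n * y * n⁻¹) * n⁻¹ by group, hinv,
        show n * y⁻¹ * n⁻¹ = (n * y * n⁻¹)⁻¹ by group, hinv, inv_inv]
    calc n ^ (2 * (j + 1) + 1) * y * (n ^ (2 * (j + 1) + 1))⁻¹
        = n ^ (2 * j + 1) * (n ^ 2 * y * (n ^ 2)⁻¹) * (n ^ (2 * j + 1))⁻¹ := by group
      _ = y⁻¹ := by rw [h2, ih]

end CfsgLib.GTwoTwo
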