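import Cfsg.Agent.Lib.GTwoTwo.Column
import Cfsg.Agent.Lib.GTwoTwo.Seven
import Cfsg.Agent.Lib.CharTheory.FullDefect
import Cfsg.Agent.Lib.SmallGroups.Action

/-!
The small characters of a simple group of order 6048 without elements of order 9, 14 and 21.
-/

set_option autoImplicit false
set_option linter.style.haveILetI false

open Cfsg CfsgLib.CharTheory CfsgLib.SmallGroups Subgroup
open scoped ComplexConjugate commutatorElement

namespace CfsgLib.GTwoTwo

universe u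

theorem degree_candidates : ∀ a ∈ List.range 78, a ∣ 6048 → 1 < a → (a % 7 = 1 ∨ a % 7 = 6) →
    (a ∈ [8, 36] ∧ a % 7 = 1) ∨ (a ∈ [6, 27, 48] ∧ a % 7 = 6) := by decide +kernel

theorem exceptional_candidates : ∀ x ∈ List.range 55, x ∣ 6048 → 1 < x → (x % 7 = 4 ∨ x % 7 = 3) →
    (x ∈ [4, 18, 32] ∧ x % 7 = 4) ∨ (x ∈ [3, 24] ∧ x % 7 = 3) := by decide +kernel

theorem triples : ∀ a ∈ ([6, 8, 27, 36, 48] : List ℕ), ∀ b ∈ ([6, 8, 27, 36, 48] : List ℕ),
    ∀ x ∈ ([3, 4, 18, 24, 32] : List ℕ),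
    1 + (if a % 7 = 1 then (a : ℤ) else -a) + (if b % 7 = 1 then (b : ℤ) else -b) +
        (if x % 7 = 4 then (x : ℤ) else -x) = 0 →
    ((a = 6 ∧ b = 8 ∧ x = 3) ∨ (a = 6 ∧ b = 27 ∧ x = 32) ∨ (a = 8 ∧ b = 27 ∧ x = 18)) ∨
    ((b = 6 ∧ a = 8 ∧ x = 3) ∨ (b = 6 ∧ a = 27 ∧ x = 32) ∨ (b = 8 ∧ a = 27 ∧ x = 18)) := by
  decide +kernel

theorem small_values : ∀ a ∈ Finset.Icc (-26 : ℤ) 26, ∀ c ∈ Finset.Icc (-3 : ℤ) 3,
    (c = 2 ∨ c = -2) → (27 - a) % 4 = 0 →
      864 - 144 * c ^ 2 - 32 * a ^ 2 + 27 * (c + a - 1) ^ 2 = 0 →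
        (c = -2 ∧ a = 3) ∨ (c = 2 ∧ a = 15) := by decide +kernel

theorem no_values : ∀ a ∈ Finset.Icc (-8 : ℤ) 8, ∀ b ∈ Finset.Icc (-27 : ℤ) 27,
    (8 - a) % 4 = 0 → (27 - b) % 4 = 0 → (18 - (b - a - 1)) % 4 = 0 → a ≠ 8 → a ≠ -8 →
      216 + 27 * a ^ 2 - 8 * b ^ 2 + 12 * (b - a - 1) ^ 2 = 0 → False := by decide +kernel

variable {M : Type u} [Group M] [Fintype M] [IsSimpleGroup M]

theorem lin_trivial (hM : ¬ IsMulCommutative M) (f : M →* ℂˣ) (g : M) : f g = 1 := by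
  have hker : f.ker = ⊤ := by
    refine ((inferInstance : f.ker.Normal).eq_bot_or_eq_top).resolve_left fun hb => hM ?_
    exact IsMulCommutative.of_comm fun a b =>
      (MonoidHom.ker_eq_bot_iff f).mp hb (by rw [map_mul, map_mul, mul_comm])
  exact MonoidHom.mem_ker.mp (hker ▸ mem_top g)

theorem one_lt_degree (hM : ¬ IsMulCommutative M) {χ : IrrCharacter M} (hχ : trivIrr M ≠ χ) {d : ℕ}
    (hd : (χ : M → ℂ) 1 = d) (hpos : 0 < d) : 1 < d := by
  by_contra h
  have h1 : d = 1 := by omega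
  obtain ⟨μ, hμ⟩ := exists_hom_of_degree_one χ.2 (by rw [hd, h1, Nat.cast_one])
  refine hχ (Subtype.ext ?_)
  rw [hμ]
  funext g
  rw [trivIrr_apply, lin_trivial hM μ g, Units.val_one]

/-- Faithfulness. -/
theorem eq_one_of_apply_eq (χ : IrrCharacter M) (hχ : trivIrr M ≠ χ) {g : M}
    (hg : (χ : M → ℂ) g = (χ : M → ℂ) 1) : g = 1 := by
  obtain ⟨K, hKn, hK, -⟩ := exists_kernel (IsIrrCharacter.isCharacter χ.2)
  by_contra hne
  have hgK : g ∈ K := (hK g).mpr hg
  have htop : K = ⊤ := (hKn.eq_bot_or_eq_top).resolve_left fun h => by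
    rw [h, mem_bot] at hgK; exact hne hgK
  have hconst : ∀ x, (χ : M → ℂ) x = (χ : M → ℂ) 1 := fun x => (hK x).mp (htop ▸ mem_top x)
  have h0 := classInner_eq_zero_of_ne χ.2 isIrrCharacter_one fun e => hχ (Subtype.ext (by
    funext x; rw [trivIrr_apply, congrFun e x]))
  rw [funext hconst] at h0
  exact apply_one_ne_zero_of_isIrr χ.2 (by simpa [classInner] using h0)

variable (hcard : Nat.card M = 6048)
include hcard

theorem noncomm : ¬ IsMulCommutative M := not_isMulCommutative_of_card_eq hcard (by norm_num)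

omit [Fintype M] [IsSimpleGroup M] in
theorem primes_6048 : ¬ 49 ∣ Nat.card M ∧ ∀ p : ℕ, p.Prime → p ∣ Nat.card M → p = 2 ∨ p = 3 ∨ p = 7 := by
  rw [hcard]
  refine ⟨by norm_num, fun p hp hd => ?_⟩
  have h : p ∣ 2 ^ 5 * (3 ^ 3 * 7) := by simpa using hd
  rcases hp.dvd_mul.1 h with h | h
  · exact Or.inl ((Nat.prime_dvd_prime_iff_eq hp Nat.prime_two).1 (hp.dvd_of_dvd_pow h))
  rcases hp.dvd_mul.1 h with h | h
  · exact Or.inr (Or.inl ((Nat.prime_dvd_prime_iff_eq hp Nat.prime_three).1 (hp.dvd_of_dvd_pow h)))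
  · exact Or.inr (Or.inr ((Nat.prime_dvd_prime_iff_eq hp (by norm_num)).1 h))

theorem centralizer_index {u : M} (hu : u ≠ 1) : Nat.card (centralizer ({u} : Set M)) ≤ 672 := by
  set C := centralizer ({u} : Set M)
  have hC : C ≠ ⊤ := fun h => by
    have hz : u ∈ center M := mem_center_iff.2 fun g =>
      mem_centralizer_singleton_iff.1 (show g ∈ C from h ▸ mem_top g)
    rcases (inferInstance : (center M).Normal).eq_bot_or_eq_top with hb | ht
    · exact hu (mem_bot.1 (hb ▸ hz))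
    · exact noncomm hcard (IsMulCommutative.of_comm fun a b =>
        mem_center_iff.1 (ht ▸ mem_top b : b ∈ center M) a)
  have h := two_mul_card_dvd_factorial_index (noncomm hcard) hC
  rw [hcard] at h
  have hk : ∀ k < 9, ¬ 2 * 6048 ∣ k.factorial := by decide +kernel
  have h9 : 9 ≤ C.index := by
    by_contra h'
    exact hk _ (by omega) h
  have hm := C.card_mul_index
  rw [hcard] at hm
  nlinarith

/-- An involution does not act as minus one. -/
theorem apply_ne_neg (χ : IrrCharacter M) (hχ : trivIrr M ≠ χ) {u : M} (hu : orderOf u = 2) :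
    (χ : M → ℂ) u ≠ -(χ : M → ℂ) 1 := by
  intro h
  have hM := noncomm hcard
  have hu1 : u ≠ 1 := fun e => by rw [e, orderOf_one] at hu; omega
  obtain ⟨d, l, hd, hval, hl, -, hall⟩ :=
    exists_roots_det (IsIrrCharacter.isCharacter χ.2) two_ne_zero (by rw [← hu, pow_orderOf_eq_one])
      fun f => lin_trivial hM f u
  have hpm : ∀ i, l i = 1 ∨ l i = -1 := fun i => by
    have := hl i
    rw [pow_two] at this
    exact mul_self_eq_one_iff.1 this
  have hre : ∀ i, (0 : ℝ) ≤ (l i).re + 1 := fun i => by rcases hpm i with e | e <;> rw [e] <;> norm_num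
  have hs : ∑ i, ((l i).re + 1) = 0 := by
    rw [h, hd] at hval
    have h' := congrArg Complex.re hval
    rw [Complex.re_sum] at h'
    simp [Finset.sum_add_distrib, ← h']
  have hneg : ∀ i, l i = -1 := fun i => by
    have := (Finset.sum_eq_zero_iff_of_nonneg fun i _ => hre i).1 hs i (Finset.mem_univ i)
    rcases hpm i with e | e
    · rw [e] at this; norm_num at this
    · exact e
  have hz : u ∈ center M := mem_center_iff.2 fun g => by
    have h := eq_one_of_apply_eq χ hχ (hall (fun i j => by rw [hneg, hneg]) g)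
    exact (commutatorElement_eq_one_iff_mul_comm.1 h).symm
  rcases (inferInstance : (center M).Normal).eq_bot_or_eq_top with hb | ht
  · exact hu1 (mem_bot.1 (hb ▸ hz))
  · exact hM (IsMulCommutative.of_comm fun a b => mem_center_iff.1 (ht ▸ mem_top b : b ∈ center M) a)

variable (hno : NoOrders M)
include hno

theorem seven_data : ∃ y : M, orderOf y = 7 ∧ Nat.card (centralizer ({y} : Set M)) = 7 ∧
    IsConj y (y ^ 2) ∧ ¬ IsConj y y⁻¹ := by
  haveI : Fact (Nat.Prime 7) := ⟨by norm_num⟩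
  haveI : Fact (Nat.Prime 3) := ⟨Nat.prime_three⟩
  obtain ⟨h49, hpr⟩ := primes_6048 hcard
  obtain ⟨P⟩ := (inferInstance : Nonempty (Sylow 7 M))
  have hP : Nat.card ↥(P : Subgroup M) = 7 :=
    card_sylow_eq (p := 7) (a := 1) (m := 864) (by rw [hcard]; norm_num) (by norm_num) P
  obtain ⟨⟨y, hyP⟩, hyo⟩ := exists_prime_orderOf_dvd_card' (G := (P : Subgroup M)) 7 (dvd_of_eq hP.symm)
  rw [Subgroup.orderOf_mk] at hyo
  have hCy := hno.card_centralizer_seven h49 hpr hyo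
  have hCP := hno.centralizer_sylow h49 hpr P hP
  have hrel : Nat.card ↥(normalizer ((P : Subgroup M) : Set M)) ∣ 42 := by
    have hd : (centralizer ((P : Subgroup M) : Set M)).relIndex (normalizer ((P : Subgroup M) : Set M)) ∣ 6 :=
      relIndex_centralizer_dvd_pred (p := 7) _ hP
    rw [hCP, relIndex] at hd
    have h := card_mul_index ((P : Subgroup M).subgroupOf (normalizer ((P : Subgroup M) : Set M)))
    rw [Nat.card_congr (subgroupOfEquivOfLe le_normalizer).toEquiv, hP] at h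
    rw [← h]
    exact mul_dvd_mul_left 7 hd
  have hn := card_sylow_mem (p := 7) (a := 1) (m := 864) (G := M) (by rw [hcard]; norm_num) (by norm_num)
  rw [show (Nat.divisors 864).filter (fun d => d % 7 = 1) = {1, 8, 36, 288} by decide +kernel] at hn
  simp only [Finset.mem_insert, Finset.mem_singleton] at hn
  have hmul := card_sylow_mul_card_normalizer P
  rw [hcard] at hmul
  have hle := Nat.le_of_dvd (by norm_num) hrel
  have hN : Nat.card ↥(normalizer ((P : Subgroup M) : Set M)) = 21 := by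
    rcases hn with h | h | h | h <;> rw [h] at hmul <;> omega
  refine ⟨y, hyo, hCy, ?_, fun hinv => ?_⟩
  · obtain ⟨⟨n, hnN⟩, hno3⟩ := exists_prime_orderOf_dvd_card' (G := ↥(normalizer ((P : Subgroup M) : Set M))) 3
      (by rw [hN]; norm_num)
    rw [Subgroup.orderOf_mk] at hno3
    have hn3 : n ^ 3 = 1 := hno3 ▸ pow_orderOf_eq_one n
    have hmem : n * y * n⁻¹ ∈ zpowers y := by
      rw [zpowers_eq_of_mem P hP hyP (fun e => by rw [e, orderOf_one] at hyo; omega)]
      exact (mem_normalizer_iff.1 hnN y).1 hyP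
    obtain ⟨k, hk⟩ := (isOfFinOrder_of_finite y).mem_powers_iff_mem_zpowers.2 hmem
    have hk' : n * y * n⁻¹ = y ^ (k % 7) := by rw [← hk, ← hyo, pow_mod_orderOf]
    have hlt := Nat.mod_lt k (show 7 > 0 by norm_num)
    generalize k % 7 = j at hk' hlt
    have h3 : y ^ (j * j * j) = y := by
      have e1 : n ^ 2 * y * (n ^ 2)⁻¹ = y ^ (j * j) := by
        rw [pow_two, show n * n * y * (n * n)⁻¹ = n * (n * y * n⁻¹) * n⁻¹ by group, hk', ← conj_pow, hk',
          ← pow_mul]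
      calc y ^ (j * j * j) = n ^ 3 * y * (n ^ 3)⁻¹ := by
            rw [show n ^ 3 * y * (n ^ 3)⁻¹ = n * (n ^ 2 * y * (n ^ 2)⁻¹) * n⁻¹ by group, e1, ← conj_pow, hk',
              ← pow_mul]
            congr 1; ring
        _ = y := by rw [hn3]; group
    have hmod : j * j * j % 7 = 1 := by
      have h := pow_eq_pow_iff_modEq.1 (h3.trans (pow_one y).symm)
      rw [hyo] at h
      exact h
    have hj : j = 1 ∨ j = 2 ∨ j = 4 := by interval_cases j <;> omega
    rcases hj with rfl | rfl | rfl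
    · exfalso
      rw [pow_one] at hk'
      have hc : n ∈ centralizer ({y} : Set M) :=
        mem_centralizer_singleton_iff.2 (mul_inv_eq_iff_eq_mul.1 hk')
      have := Subgroup.orderOf_dvd_natCard _ hc
      rw [hno3, hCy] at this
      omega
    · exact isConj_iff.2 ⟨n, hk'⟩
    · refine isConj_iff.2 ⟨n ^ 2, ?_⟩
      rw [pow_two n, show n * n * y * (n * n)⁻¹ = n * (n * y * n⁻¹) * n⁻¹ by group, hk', ← conj_pow, hk',
        ← pow_mul, pow_eq_pow_iff_modEq, hyo]
      rfl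
  · obtain ⟨g, hg⟩ := isConj_iff.1 hinv
    have hgN : g ∈ normalizer ((P : Subgroup M) : Set M) := by
      rw [mem_normalizer_iff_map_conj_eq]
      refine eq_of_le_of_card_ge ?_ (le_of_eq (card_map_of_injective (MulAut.conj g).injective).symm)
      rintro _ ⟨z, hz, rfl⟩
      rw [SetLike.mem_coe, ← zpowers_eq_of_mem P hP hyP (fun e => by rw [e, orderOf_one] at hyo; omega)] at hz
      obtain ⟨i, rfl⟩ := hz
      show (MulAut.conj g) (y ^ i) ∈ (P : Subgroup M)
      rw [map_zpow, MulAut.conj_apply, hg]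
      exact zpow_mem (inv_mem hyP) i
    have hg21 : g ^ 21 = 1 := orderOf_dvd_iff_pow_eq_one.1 (hN ▸ Subgroup.orderOf_dvd_natCard _ hgN)
    have h := inv_pow_odd hg 21 ⟨10, rfl⟩
    rw [hg21, one_mul, inv_one, mul_one] at h
    have h2 : y ^ 2 = 1 := by rw [pow_two]; nth_rw 2 [h]; exact mul_inv_cancel y
    have := orderOf_dvd_of_pow_eq_one h2
    rw [hyo] at this
    omega
where
  zpowers_eq_of_mem {M : Type u} [Group M] [Fintype M] [Fact (Nat.Prime 7)] (P : Sylow 7 M)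
      (hP : Nat.card ↥(P : Subgroup M) = 7) {y : M} (hy : y ∈ (P : Subgroup M)) (h1 : y ≠ 1) :
      zpowers y = (P : Subgroup M) := by
    refine eq_of_le_of_card_ge (zpowers_le.mpr hy) (le_of_eq ?_)
    have hd : orderOf y ∣ 7 := hP ▸ Subgroup.orderOf_dvd_natCard _ hy
    rw [hP, Nat.card_zpowers]
    exact (((Nat.dvd_prime (by norm_num)).mp hd).resolve_left (fun h => h1 (orderOf_eq_one_iff.mp h))).symm

/-- The core of the case analysis, for an ordered pair. -/
theorem core (ξa ξb ξx ξx' : IrrCharacter M) (va vb δ : ℤ) (a b x : ℕ)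
    (hne : trivIrr M ≠ ξa ∧ trivIrr M ≠ ξb ∧ trivIrr M ≠ ξx ∧ trivIrr M ≠ ξx' ∧ ξa ≠ ξb ∧ ξa ≠ ξx ∧
        ξa ≠ ξx' ∧ ξb ≠ ξx ∧ ξb ≠ ξx' ∧ ξx ≠ ξx')
    (hconj : ∀ g, (ξx' : M → ℂ) g = conj ((ξx : M → ℂ) g))
    (ha : (ξa : M → ℂ) 1 = a) (hb : (ξb : M → ℂ) 1 = b) (hx : (ξx : M → ℂ) 1 = x)
    (hcase : (a = 6 ∧ va = -1 ∧ b = 8 ∧ vb = 1 ∧ x = 3 ∧ δ = -1) ∨
      (a = 6 ∧ va = -1 ∧ b = 27 ∧ vb = -1 ∧ x = 32 ∧ δ = 1) ∨
      (a = 8 ∧ va = 1 ∧ b = 27 ∧ vb = -1 ∧ x = 18 ∧ δ = 1))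
    (hlin : ∀ u : M, orderOf u = 2 →
        2 + 2 * (va : ℂ) * (ξa : M → ℂ) u + 2 * (vb : ℂ) * (ξb : M → ℂ) u +
          (δ : ℂ) * ((ξx : M → ℂ) u + (ξx' : M → ℂ) u) = 0)
    (hquad : ∀ u : M, orderOf u = 2 →
        2 * (((trivIrr M : IrrCharacter M) : M → ℂ) u * conj (((trivIrr M : IrrCharacter M) : M → ℂ) u)) +
          2 * (va : ℂ) * ((ξa : M → ℂ) u * conj ((ξa : M → ℂ) u) / (ξa : M → ℂ) 1) +
          2 * (vb : ℂ) * ((ξb : M → ℂ) u * conj ((ξb : M → ℂ) u) / (ξb : M → ℂ) 1) +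
          (δ : ℂ) * ((ξx : M → ℂ) u * conj ((ξx : M → ℂ) u) / (ξx : M → ℂ) 1 +
            (ξx' : M → ℂ) u * conj ((ξx' : M → ℂ) u) / (ξx' : M → ℂ) 1) = 0) :
    (ξa : M → ℂ) 1 = 6 ∧ (ξb : M → ℂ) 1 = 27 ∧ trivIrr M ≠ ξa ∧ trivIrr M ≠ ξb ∧
      ∀ u : M, orderOf u = 2 → (ξa : M → ℂ) u = -2 ∧ (ξb : M → ℂ) u = 3 := by
  classical
  have hM := noncomm hcard
  rcases hcase with ⟨rfl, rfl, rfl, rfl, rfl, rfl⟩ | ⟨rfl, rfl, rfl, rfl, rfl, rfl⟩ | ⟨rfl, rfl, rfl, rfl, rfl, rfl⟩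
  · -- a faithful character of degree three
    exfalso
    haveI : Fact (Nat.Prime 3) := ⟨Nat.prime_three⟩
    obtain ⟨S⟩ := (inferInstance : Nonempty (Sylow 3 M))
    have hS : Nat.card ↥(S : Subgroup M) = 27 :=
      (card_sylow_eq (p := 3) (a := 3) (m := 224) (by rw [hcard]; norm_num) (by norm_num) S).trans (by norm_num)
    have hz : ∀ s : (S : Subgroup M), s ≠ 1 → (ξx : M → ℂ) s = 0 := by
      intro s hs
      have hs3 : (s : M) ^ 3 = 1 := by
        refine hno.three_elements (k := 3) ?_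
        rw [show (3 : ℕ) ^ 3 = 27 by norm_num, ← hS]
        exact_mod_cast congrArg Subtype.val (pow_card_eq_one' (x := s))
      refine apply_eq_zero_of_degree_three (IsIrrCharacter.isCharacter ξx.2) (by rw [hx]; norm_num) hs3
        (fun f => lin_trivial hM f _) fun hall => ?_
      have hz : (s : M) ∈ center M := mem_center_iff.2 fun g => by
        have h := eq_one_of_apply_eq ξx hne.2.2.1 (hall g)
        exact (commutatorElement_eq_one_iff_mul_comm.1 h).symm
      rcases (inferInstance : (center M).Normal).eq_bot_or_eq_top with hb | ht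
      · exact hs (Subtype.ext (mem_bot.1 (hb ▸ hz)))
      · exact hM (IsMulCommutative.of_comm fun a b => mem_center_iff.1 (ht ▸ mem_top b : b ∈ center M) a)
    obtain ⟨m, hm⟩ := exists_nat_sum (IsIrrCharacter.isCharacter ξx.2) (S : Subgroup M)
    rw [Finset.sum_eq_single 1 (fun s _ h => hz s h) (fun h => absurd (Finset.mem_univ _) h), hS,
      OneMemClass.coe_one, hx] at hm
    have : ((27 * m : ℕ) : ℂ) = ((3 : ℕ) : ℂ) := by push_cast; exact hm.symm.trans (by norm_num)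
    have := Nat.cast_inj.1 this
    omega
  · refine ⟨by rw [ha]; norm_num, by rw [hb]; norm_num, hne.1, hne.2.1, fun u hu => ?_⟩
    have hu2 : u * u = 1 := by rw [← pow_two, ← hu, pow_orderOf_eq_one]
    have hu1 : u ≠ 1 := fun h => by rw [h, orderOf_one] at hu; omega
    obtain ⟨da, A, hda, hA, hA4, hAl, hAh⟩ :=
      exists_int_four (IsIrrCharacter.isCharacter ξa.2) hu2 fun f => lin_trivial hM f u
    obtain ⟨db, B, hdb, hB, hB4, hBl, hBh⟩ :=
      exists_int_four (IsIrrCharacter.isCharacter ξb.2) hu2 fun f => lin_trivial hM f u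
    obtain ⟨dx, C, hdx, hC, hC4, hCl, hCh⟩ :=
      exists_int_four (IsIrrCharacter.isCharacter ξx.2) hu2 fun f => lin_trivial hM f u
    obtain rfl : da = 6 := by rw [ha] at hda; exact_mod_cast hda.symm
    obtain rfl : db = 27 := by rw [hb] at hdb; exact_mod_cast hdb.symm
    have hAne : A ≠ 6 := fun h => hu1 (eq_one_of_apply_eq ξa hne.1 (by rw [hA, h, ha]; norm_num))
    have hBne : B ≠ 27 := fun h => hu1 (eq_one_of_apply_eq ξb hne.2.1 (by rw [hB, h, hb]; norm_num))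
    have h1 := hlin u hu
    rw [hconj, hA, hB, hC, map_intCast] at h1
    have e1 : C = A + B - 1 := by
      have h1' : ((2 + 2 * (-1) * A + 2 * (-1) * B + 1 * (C + C) : ℤ) : ℂ) = ((0 : ℤ) : ℂ) := by
        push_cast; linear_combination h1
      have := Int.cast_injective h1'
      linarith
    have h2 := hquad u hu
    rw [hconj 1, hconj u, ha, hb, hx, hA, hB, hC, trivIrr_apply] at h2
    simp only [map_intCast, map_one, map_natCast] at h2
    push_cast at h2
    have e2 : 864 - 144 * A ^ 2 - 32 * B ^ 2 + 27 * (A + B - 1) ^ 2 = 0 := by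
      rw [← e1]
      apply Int.cast_injective (α := ℂ)
      push_cast
      linear_combination (432 : ℂ) * h2
    have hAne' : A ≠ -6 := fun h => apply_ne_neg hcard ξa hne.1 hu (by rw [hA, h, ha]; norm_num)
    have hA2 : A = 2 ∨ A = -2 := by omega
    obtain ⟨rfl, rfl⟩ | ⟨rfl, rfl⟩ := small_values B (Finset.mem_Icc.2 ⟨by omega, by omega⟩) A
      (Finset.mem_Icc.2 ⟨by omega, by omega⟩) hA2 (by omega) e2
    · exact ⟨by rw [hA]; norm_num, by rw [hB]; norm_num⟩
    · exfalso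
      obtain rfl : C = 16 := by rw [e1]; norm_num
      haveI : Fintype (IrrCharacter M) := Fintype.ofFinite _
      have hn := sum_mul_conj (G := M) u u
      rw [if_pos (IsConj.refl u)] at hn
      have hf : ∀ χ : IrrCharacter M, ∃ r : ℤ, (χ : M → ℂ) u = r := fun χ =>
        let ⟨_, r, _, hr, _⟩ := exists_int_four (IsIrrCharacter.isCharacter χ.2) hu2 fun f => lin_trivial hM f u
        ⟨r, hr⟩
      choose r hr using hf
      simp only [hr, map_intCast] at hn
      have hn' : ∑ χ, r χ * r χ = (Nat.card (centralizer ({u} : Set M)) : ℤ) := by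
        apply Int.cast_injective (α := ℂ)
        push_cast
        exact hn
      have hle := Finset.sum_le_sum_of_subset_of_nonneg (f := fun χ => r χ * r χ)
        (Finset.subset_univ ({trivIrr M, ξa, ξb, ξx, ξx'} : Finset (IrrCharacter M)))
        fun χ _ _ => mul_self_nonneg _
      obtain ⟨n1, n2, n3, n4, n5, n6, n7, n8, n9, n10⟩ := hne
      rw [Finset.sum_insert (by simp [n1, n2, n3, n4]), Finset.sum_insert (by simp [n5, n6, n7]),
        Finset.sum_insert (by simp [n8, n9]), Finset.sum_pair n10, hn'] at hle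
      have r1 : r (trivIrr M) = 1 := by exact_mod_cast (hr (trivIrr M)).symm.trans (trivIrr_apply u)
      have r2 : r ξa = 2 := by exact_mod_cast (hr ξa).symm.trans hA
      have r3 : r ξb = 15 := by exact_mod_cast (hr ξb).symm.trans hB
      have r4 : r ξx = 16 := by exact_mod_cast (hr ξx).symm.trans hC
      have r5 : r ξx' = 16 := by
        have h := hr ξx'
        rw [hconj, hC, map_intCast] at h
        exact_mod_cast h.symm
      rw [r1, r2, r3, r4, r5] at hle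
      have := centralizer_index hcard hu1
      omega
  · exfalso
    haveI : Fact (Nat.Prime 2) := ⟨Nat.prime_two⟩
    obtain ⟨u, hu⟩ := exists_prime_orderOf_dvd_card' (G := M) 2 (by rw [hcard]; norm_num)
    have hu2 : u * u = 1 := by rw [← pow_two, ← hu, pow_orderOf_eq_one]
    have hu1 : u ≠ 1 := fun h => by rw [h, orderOf_one] at hu; omega
    obtain ⟨da, A, hda, hA, hA4, hAl, hAh⟩ :=
      exists_int_four (IsIrrCharacter.isCharacter ξa.2) hu2 fun f => lin_trivial hM f u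
    obtain ⟨db, B, hdb, hB, hB4, hBl, hBh⟩ :=
      exists_int_four (IsIrrCharacter.isCharacter ξb.2) hu2 fun f => lin_trivial hM f u
    obtain ⟨dx, C, hdx, hC, hC4, hCl, hCh⟩ :=
      exists_int_four (IsIrrCharacter.isCharacter ξx.2) hu2 fun f => lin_trivial hM f u
    obtain rfl : da = 8 := by rw [ha] at hda; exact_mod_cast hda.symm
    obtain rfl : db = 27 := by rw [hb] at hdb; exact_mod_cast hdb.symm
    obtain rfl : dx = 18 := by rw [hx] at hdx; exact_mod_cast hdx.symm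
    have hAne : A ≠ 8 := fun h => hu1 (eq_one_of_apply_eq ξa hne.1 (by rw [hA, h, ha]; norm_num))
    have hAne' : A ≠ -8 := fun h => apply_ne_neg hcard ξa hne.1 hu (by rw [hA, h, ha]; norm_num)
    have h1 := hlin u hu
    rw [hconj, hA, hB, hC, map_intCast] at h1
    have e1 : C = B - A - 1 := by
      have h1' : ((2 + 2 * 1 * A + 2 * (-1) * B + 1 * (C + C) : ℤ) : ℂ) = ((0 : ℤ) : ℂ) := by
        push_cast; linear_combination h1
      have := Int.cast_injective h1'
      linarith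
    have h2 := hquad u hu
    rw [hconj 1, hconj u, ha, hb, hx, hA, hB, hC, trivIrr_apply] at h2
    simp only [map_intCast, map_one, map_natCast] at h2
    push_cast at h2
    have e2 : 216 + 27 * A ^ 2 - 8 * B ^ 2 + 12 * (B - A - 1) ^ 2 = 0 := by
      rw [← e1]
      apply Int.cast_injective (α := ℂ)
      push_cast
      linear_combination (108 : ℂ) * h2
    exact no_values A (Finset.mem_Icc.2 ⟨by omega, by omega⟩) B (Finset.mem_Icc.2 ⟨by omega, by omega⟩)
      (by omega) (by omega) (by omega) hAne hAne' e2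

set_option maxHeartbeats 800000 in
/-- The characters of degree 6 and 27. -/
theorem exists_chars : ∃ χ6 χ27 : IrrCharacter M, trivIrr M ≠ χ6 ∧ trivIrr M ≠ χ27 ∧
    (χ6 : M → ℂ) 1 = 6 ∧ (χ27 : M → ℂ) 1 = 27 ∧
    (∀ u : M, orderOf u = 2 → (χ6 : M → ℂ) u = -2 ∧ (χ27 : M → ℂ) u = 3) ∧
    (∀ g : M, 3 ∣ orderOf g → (χ27 : M → ℂ) g = 0) := by
  classical
  haveI : Fintype (IrrCharacter M) := Fintype.ofFinite _
  obtain ⟨y, hy, hC, hsq, hnot⟩ := seven_data hcard hno
  obtain ⟨ξa, ξb, ξx, ξx', va, vb, δ, hva, hvb, hδ, hne, hconj, hca, hcb, hcx, hlin, hquad⟩ :=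
    column_three hy hC hsq hnot
  have hM := noncomm hcard
  have hordne : ∀ g : M, orderOf g ≠ 7 → ¬ IsConj y g ∧ ¬ IsConj y⁻¹ g := by
    intro g hg
    constructor <;> intro h <;> obtain ⟨c, rfl⟩ := isConj_iff.1 h <;>
      exact hg (by rw [CfsgLib.Involutions.orderOf_conj]; simp [hy])
  have hquad' : ∀ u : M, orderOf u = 2 → ∀ x : M, IsConj u x → ¬ IsConj u (x * y) ∧ ¬ IsConj u (x * y⁻¹) := by
    intro u hu x hx
    have ho : ∀ w, IsConj u w → orderOf w = 2 := fun w hw => by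
      obtain ⟨c, rfl⟩ := isConj_iff.1 hw
      rw [CfsgLib.Involutions.orderOf_conj, hu]
    have hx2 := CfsgLib.Involutions.mul_self_eq_one (ho x hx)
    constructor <;> intro hxy
    all_goals
      have h := CfsgLib.Involutions.conj_mul_eq_inv (ho x hx) (ho _ hxy)
      simp only [← mul_assoc, hx2, one_mul] at h
    · exact hnot (isConj_iff.2 ⟨x, h⟩)
    · refine hnot (isConj_iff.2 ⟨x, ?_⟩)
      calc x * y * x⁻¹ = (x * y⁻¹ * x⁻¹)⁻¹ := by group
        _ = y⁻¹ := by rw [h, inv_inv]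
  obtain ⟨a, ha, ha0, had⟩ := exists_degree ξa
  obtain ⟨b, hb, hb0, hbd⟩ := exists_degree ξb
  obtain ⟨x, hx, hx0, hxd⟩ := exists_degree ξx
  have hx' : (ξx' : M → ℂ) 1 = x := by rw [hconj, hx, map_natCast]
  have ha1 := one_lt_degree hM hne.1 ha ha0
  have hb1 := one_lt_degree hM hne.2.1 hb hb0
  have hx1 := one_lt_degree hM hne.2.2.1 hx hx0
  have heq : 1 + va * (a : ℤ) + vb * (b : ℤ) + δ * (x : ℤ) = 0 := by
    have h := hlin 1 (hordne 1 (by simp)).1 (hordne 1 (by simp)).2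
    rw [ha, hb, hx, hx'] at h
    apply Int.cast_injective (α := ℂ)
    push_cast
    linear_combination h / 2
  have hsq : 1 + a ^ 2 + b ^ 2 + 2 * x ^ 2 ≤ 6048 := by
    have h := sum_degree_sq (G := M)
    obtain ⟨n1, n2, n3, n4, n5, n6, n7, n8, n9, n10⟩ := hne
    choose deg hdeg using fun χ : IrrCharacter M => (exists_degree χ)
    have h' : ∑ χ, deg χ ^ 2 = 6048 := by
      apply Nat.cast_injective (R := ℂ)
      rw [← hcard, ← h, Nat.cast_sum]
      exact Finset.sum_congr rfl fun χ _ => by rw [Nat.cast_pow, (hdeg χ).1]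
    have hle := Finset.sum_le_sum_of_subset (f := fun χ => deg χ ^ 2)
      (Finset.subset_univ ({trivIrr M, ξa, ξb, ξx, ξx'} : Finset (IrrCharacter M)))
    rw [Finset.sum_insert (by simp [n1, n2, n3, n4]), Finset.sum_insert (by simp [n5, n6, n7]),
      Finset.sum_insert (by simp [n8, n9]), Finset.sum_pair n10, h'] at hle
    have r1 : deg (trivIrr M) = 1 := by exact_mod_cast (hdeg (trivIrr M)).1.symm.trans (trivIrr_apply 1)
    have r2 : deg ξa = a := by exact_mod_cast (hdeg ξa).1.symm.trans ha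
    have r3 : deg ξb = b := by exact_mod_cast (hdeg ξb).1.symm.trans hb
    have r4 : deg ξx = x := by exact_mod_cast (hdeg ξx).1.symm.trans hx
    have r5 : deg ξx' = x := by exact_mod_cast (hdeg ξx').1.symm.trans hx'
    rw [r1, r2, r3, r4, r5] at hle
    omega
  have ha' := degree_candidates a (List.mem_range.2 (by nlinarith)) (hcard ▸ had) ha1 (by
    obtain ⟨i, hi⟩ := hca a ha; omega)
  have hb' := degree_candidates b (List.mem_range.2 (by nlinarith)) (hcard ▸ hbd) hb1 (by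
    obtain ⟨i, hi⟩ := hcb b hb; omega)
  have hx'' := exceptional_candidates x (List.mem_range.2 (by nlinarith)) (hcard ▸ hxd) hx1 (by
    obtain ⟨i, hi⟩ := hcx x hx; omega)
  have hva7 : (va = 1 → a % 7 = 1) ∧ (va = -1 → a % 7 = 6) := by obtain ⟨i, hi⟩ := hca a ha; omega
  have hvb7 : (vb = 1 → b % 7 = 1) ∧ (vb = -1 → b % 7 = 6) := by obtain ⟨i, hi⟩ := hcb b hb; omega
  have hδ7 : (δ = 1 → x % 7 = 4) ∧ (δ = -1 → x % 7 = 3) := by obtain ⟨i, hi⟩ := hcx x hx; omega
  simp only [List.mem_cons, List.not_mem_nil, or_false] at ha' hb' hx''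
  have hcases : ((a = 6 ∧ va = -1 ∧ b = 8 ∧ vb = 1 ∧ x = 3 ∧ δ = -1) ∨
      (a = 6 ∧ va = -1 ∧ b = 27 ∧ vb = -1 ∧ x = 32 ∧ δ = 1) ∨
      (a = 8 ∧ va = 1 ∧ b = 27 ∧ vb = -1 ∧ x = 18 ∧ δ = 1)) ∨
    ((b = 6 ∧ vb = -1 ∧ a = 8 ∧ va = 1 ∧ x = 3 ∧ δ = -1) ∨
      (b = 6 ∧ vb = -1 ∧ a = 27 ∧ va = -1 ∧ x = 32 ∧ δ = 1) ∨
      (b = 8 ∧ vb = 1 ∧ a = 27 ∧ va = -1 ∧ x = 18 ∧ δ = 1)) := by
    have fa6 : a % 7 = 6 → va = -1 := fun h => hva.resolve_left fun h' => by
      rw [hva7.1 h'] at h; simp at h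
    have fa1 : a % 7 = 1 → va = 1 := fun h => hva.resolve_right fun h' => by
      rw [hva7.2 h'] at h; simp at h
    have fb6 : b % 7 = 6 → vb = -1 := fun h => hvb.resolve_left fun h' => by
      rw [hvb7.1 h'] at h; simp at h
    have fb1 : b % 7 = 1 → vb = 1 := fun h => hvb.resolve_right fun h' => by
      rw [hvb7.2 h'] at h; simp at h
    have fx3 : x % 7 = 3 → δ = -1 := fun h => hδ.resolve_left fun h' => by
      rw [hδ7.1 h'] at h; simp at h
    have fx4 : x % 7 = 4 → δ = 1 := fun h => hδ.resolve_right fun h' => by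
      rw [hδ7.2 h'] at h; simp at h
    have e1 : va * (a : ℤ) = if a % 7 = 1 then (a : ℤ) else -a := by
      rcases hva with h | h
      · rw [if_pos (hva7.1 h), h, one_mul]
      · rw [if_neg (by rw [hva7.2 h]; simp), h, neg_one_mul]
    have e2 : vb * (b : ℤ) = if b % 7 = 1 then (b : ℤ) else -b := by
      rcases hvb with h | h
      · rw [if_pos (hvb7.1 h), h, one_mul]
      · rw [if_neg (by rw [hvb7.2 h]; simp), h, neg_one_mul]
    have e3 : δ * (x : ℤ) = if x % 7 = 4 then (x : ℤ) else -x := by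
      rcases hδ with h | h
      · rw [if_pos (hδ7.1 h), h, one_mul]
      · rw [if_neg (by rw [hδ7.2 h]; simp), h, neg_one_mul]
    rw [e1, e2, e3] at heq
    have ha5 : a ∈ ([6, 8, 27, 36, 48] : List ℕ) := by
      rcases ha' with ⟨h | h, -⟩ | ⟨h | h | h, -⟩ <;> simp [h]
    have hb5 : b ∈ ([6, 8, 27, 36, 48] : List ℕ) := by
      rcases hb' with ⟨h | h, -⟩ | ⟨h | h | h, -⟩ <;> simp [h]
    have hx5 : x ∈ ([3, 4, 18, 24, 32] : List ℕ) := by
      rcases hx'' with ⟨h | h | h, -⟩ | ⟨h | h, -⟩ <;> simp [h]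
    rcases triples a ha5 b hb5 x hx5 heq with
      (⟨r1, r2, r3⟩ | ⟨r1, r2, r3⟩ | ⟨r1, r2, r3⟩) | (⟨r1, r2, r3⟩ | ⟨r1, r2, r3⟩ | ⟨r1, r2, r3⟩)
    · exact Or.inl (Or.inl ⟨r1, fa6 (by rw [r1]), r2, fb1 (by rw [r2]), r3, fx3 (by rw [r3])⟩)
    · exact Or.inl (Or.inr (Or.inl ⟨r1, fa6 (by rw [r1]), r2, fb6 (by rw [r2]), r3, fx4 (by rw [r3])⟩))
    · exact Or.inl (Or.inr (Or.inr ⟨r1, fa1 (by rw [r1]), r2, fb6 (by rw [r2]), r3, fx4 (by rw [r3])⟩))
    · exact Or.inr (Or.inl ⟨r1, fb6 (by rw [r1]), r2, fa1 (by rw [r2]), r3, fx3 (by rw [r3])⟩)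
    · exact Or.inr (Or.inr (Or.inl ⟨r1, fb6 (by rw [r1]), r2, fa6 (by rw [r2]), r3, fx4 (by rw [r3])⟩))
    · exact Or.inr (Or.inr (Or.inr ⟨r1, fb1 (by rw [r1]), r2, fa6 (by rw [r2]), r3, fx4 (by rw [r3])⟩))
  have hlin' : ∀ u : M, orderOf u = 2 → _ := fun u hu =>
    hlin u (hordne u (by omega)).1 (hordne u (by omega)).2
  have hquad'' : ∀ u : M, orderOf u = 2 → _ := fun u hu => hquad u (hquad' u hu)
  have hvan : ∀ χ : IrrCharacter M, (χ : M → ℂ) 1 = 27 → ∀ g : M, 3 ∣ orderOf g → (χ : M → ℂ) g = 0 :=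
    fun χ hχ g hg => IsIrrCharacter.eq_zero_of_fullDegree χ.2 (n := 3) Nat.prime_three
      (by rw [hcard]; norm_num) (d := 27) (by rw [hχ]; norm_num) (by norm_num) hg
  rcases hcases with hc | hc
  · obtain ⟨h6, h27, hn6, hn27, hval⟩ := core hcard hno ξa ξb ξx ξx' va vb δ a b x hne hconj ha hb hx hc hlin' hquad''
    exact ⟨ξa, ξb, hn6, hn27, h6, h27, hval, hvan ξb h27⟩
  · obtain ⟨n1, n2, n3, n4, n5, n6, n7, n8, n9, n10⟩ := hne
    obtain ⟨h6, h27, hn6, hn27, hval⟩ := core hcard hno ξb ξa ξx ξx' vb va δ b a x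
      ⟨n2, n1, n3, n4, Ne.symm n5, n8, n9, n6, n7, n10⟩ hconj hb ha hx hc
      (fun u hu => by have := hlin' u hu; linear_combination this)
      (fun u hu => by have := hquad'' u hu; linear_combination this)
    exact ⟨ξb, ξa, hn6, hn27, h6, h27, hval, hvan ξa h27⟩

end CfsgLib.GTwoTwo
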