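import Cfsg.Agent.Lib.GTwoTwo.Local

/-!
Two Sylow 3-subgroups of a simple group of order 6048 without elements of order 9, 14 and 21 meet trivially.
-/

set_option autoImplicit false
set_option linter.style.haveILetI false
set_option linter.unusedSectionVars false

open Cfsg CfsgLib.CharTheory CfsgLib.SmallGroups Subgroup MulAction
open scoped commutatorElement

namespace CfsgLib.GTwoTwo

universe u

variable {M : Type u} [Group M] [Fintype M] [IsSimpleGroup M]
  (hcard : Nat.card M = 6048) (hno : NoOrders M) (ch : SmallChars M) [Fact (Nat.Prime 3)]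
include hcard hno ch

/-- The centre of a Sylow 3-subgroup. -/
theorem center_map (S : Sylow 3 M) :
    Nat.card ↥((center ↥(S : Subgroup M)).map (S : Subgroup M).subtype) = 3 := by
  obtain ⟨a, b, hab⟩ := sylow_noncomm hcard hno ch S
  rw [card_map_of_injective (S : Subgroup M).subtype_injective]
  exact Heis.card_center (card_sylow_three hcard hno S) hab

/-- A two-element that acts trivially on `S` modulo its centre is trivial. -/
theorem eq_one_of_trivial_mod (S : Sylow 3 M) {t : M} {k : ℕ} (ht : t ^ (2 ^ k) = 1)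
    (htS : ∀ s ∈ (S : Subgroup M), t * s * t⁻¹ * s⁻¹ ∈ (center ↥(S : Subgroup M)).map (S : Subgroup M).subtype) :
    t = 1 := by
  classical
  obtain ⟨a, b, hab⟩ := sylow_noncomm hcard hno ch S
  have hS := card_sylow_three hcard hno S
  set Z := (center ↥(S : Subgroup M)).map (S : Subgroup M).subtype
  have hZc : ∀ w ∈ Z, ∀ s ∈ (S : Subgroup M), Commute w s := by
    rintro _ ⟨w, hw, rfl⟩ s hs
    exact (congrArg Subtype.val (mem_center_iff.1 hw ⟨s, hs⟩)).symm
  have hexp := fun {s : M} (hs : s ∈ (S : Subgroup M)) => exp_sylow_three hcard hno S hs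
  -- the centre is fixed
  obtain ⟨wa, hwa, hta⟩ : ∃ w ∈ Z, t * (a : M) * t⁻¹ = w * a := ⟨_, htS a a.2, by group⟩
  obtain ⟨wb, hwb, htb⟩ : ∃ w ∈ Z, t * (b : M) * t⁻¹ = w * b := ⟨_, htS b b.2, by group⟩
  have htz : ∀ w ∈ Z, t * w * t⁻¹ = w := by
    set z : M := ⁅(a : M), (b : M)⁆ with hz
    have hzfix : t * z * t⁻¹ = z := by
      rw [hz, commutatorElement_def,
        show t * ((a : M) * b * (a : M)⁻¹ * (b : M)⁻¹) * t⁻¹ =
          (t * a * t⁻¹) * (t * b * t⁻¹) * (t * a * t⁻¹)⁻¹ * (t * b * t⁻¹)⁻¹ by group, hta, htb]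
      have c1 := hZc wa hwa (b : M) b.2
      have c2 := hZc wb hwb (a : M) a.2
      have c3 : Commute wa wb := hZc wa hwa wb (map_subtype_le _ hwb)
      have c4 := hZc wa hwa (a : M) a.2
      have c5 := hZc wb hwb (b : M) b.2
      calc wa * (a : M) * (wb * b) * (wa * (a : M))⁻¹ * (wb * b)⁻¹
          = wa * ((a : M) * wb) * b * ((a : M)⁻¹ * wa⁻¹) * ((b : M)⁻¹ * wb⁻¹) := by group
        _ = wa * wb * ((a : M) * b * (a : M)⁻¹) * (wa⁻¹ * (b : M)⁻¹) * wb⁻¹ := by rw [← c2.eq]; group
        _ = (wa * wb) * ((a : M) * b * (a : M)⁻¹ * (b : M)⁻¹) * (wa⁻¹ * wb⁻¹) := by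
          rw [c1.inv_left.inv_right.eq]; group
        _ = ((a : M) * b * (a : M)⁻¹ * (b : M)⁻¹) * ((wa * wb) * (wa⁻¹ * wb⁻¹)) := by
          rw [((hZc wa hwa _ (mul_mem (mul_mem (mul_mem a.2 b.2) (inv_mem a.2)) (inv_mem b.2))).mul_left
            (hZc wb hwb _ (mul_mem (mul_mem (mul_mem a.2 b.2) (inv_mem a.2)) (inv_mem b.2)))).eq]
          group
        _ = (a : M) * b * (a : M)⁻¹ * (b : M)⁻¹ := by rw [← mul_inv_rev, ← c3.eq, mul_inv_cancel, mul_one]
    have hz1 : z ≠ 1 := fun h => hab (Subtype.ext (commutatorElement_eq_one_iff_mul_comm.1 h))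
    have hzZ : z ∈ Z := ⟨_, Heis.commutator_mem hS hab a b, by simp [hz, commutatorElement_def]⟩
    have hzp : zpowers z = Z := by
      refine eq_of_le_of_card_ge (zpowers_le.2 hzZ) (le_of_eq ?_)
      rw [center_map hcard hno ch S, Nat.card_zpowers, orderOf_eq_prime (hexp (map_subtype_le _ hzZ)) hz1]
    intro w hw
    rw [← hzp] at hw
    obtain ⟨i, rfl⟩ := hw
    show t * z ^ i * t⁻¹ = z ^ i
    rw [← conj_zpow, hzfix]
  have hcomm : ∀ s ∈ (S : Subgroup M), t * s = s * t := by
    intro s hs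
    set w := t * s * t⁻¹ * s⁻¹ with hw
    have hwZ : w ∈ Z := htS s hs
    have hts : t * s * t⁻¹ = w * s := by rw [hw]; group
    have hn : ∀ n : ℕ, t ^ n * s * (t ^ n)⁻¹ = w ^ n * s := by
      intro n
      induction n with
      | zero => simp
      | succ n ih =>
        rw [pow_succ', show t * t ^ n * s * (t * t ^ n)⁻¹ = t * (t ^ n * s * (t ^ n)⁻¹) * t⁻¹ by group, ih,
          show t * (w ^ n * s) * t⁻¹ = t * w ^ n * t⁻¹ * (t * s * t⁻¹) by group, htz _ (pow_mem hwZ n), hts,
          ← mul_assoc, pow_succ]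
    have h1 := hn (2 ^ k)
    rw [ht, one_mul, inv_one, mul_one, eq_comm, mul_eq_right] at h1
    have h3 : w ^ 3 = 1 := hexp (map_subtype_le _ hwZ)
    have hd := Nat.dvd_gcd (orderOf_dvd_of_pow_eq_one h1) (orderOf_dvd_of_pow_eq_one h3)
    rw [((Nat.coprime_primes Nat.prime_two Nat.prime_three).2 (by norm_num)).pow_left k |>.gcd_eq_one,
      Nat.dvd_one, orderOf_eq_one_iff] at hd
    rw [hd, one_mul, mul_inv_eq_iff_eq_mul] at hts
    exact hts
  by_contra ht1
  obtain ⟨j, -, hj⟩ := (Nat.dvd_prime_pow Nat.prime_two).1 (orderOf_dvd_of_pow_eq_one ht)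
  rcases j with _ | j
  · exact ht1 (orderOf_eq_one_iff.1 (by simpa using hj))
  have huo : orderOf (t ^ (2 ^ j)) = 2 := by
    rw [orderOf_pow, hj, Nat.gcd_eq_right (pow_dvd_pow 2 j.le_succ), pow_succ,
      Nat.mul_div_cancel_left _ (by positivity)]
  have hle : (S : Subgroup M) ≤ (S : Subgroup M) ⊓ centralizer ({t ^ (2 ^ j)} : Set M) :=
    le_inf le_rfl fun s hs => mem_centralizer_singleton_iff.2
      (Commute.pow_right (show Commute s t from (hcomm s hs).symm) _).eq
  have := (Subgroup.card_le_of_le hle).trans (card_inf_centralizer_le hcard hno ch S huo)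
  omega

omit hcard hno ch [Fintype M] [IsSimpleGroup M] in
/-- A faithful group of order 8 on a group of order 9: a central involution inverts everything. -/
theorem central_inverts {V : Type*} [Group V] [Finite V] (hV : Nat.card V = 9) (hexp : ∀ v : V, v ^ 3 = 1)
    {T : Type*} [Group T] [Finite T] (hT : Nat.card T = 8) (ψ : T →* MulAut V) (hψ : Function.Injective ψ)
    {z : T} (hz : ∀ t, t * z = z * t) (hz2 : z * z = 1) (hz1 : z ≠ 1) (v : V) : ψ z v = v⁻¹ := by
  classical
  have hcomm : ∀ a b : V, a * b = b * a :=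
    IsPGroup.commutative_of_card_eq_prime_sq (p := 3) (by rw [hV]; norm_num)
  have hzz : ∀ a : V, ψ z (ψ z a) = a := fun a => by
    rw [← MulAut.mul_apply, ← map_mul, hz2, map_one, MulAut.one_apply]
  by_contra hne
  set y := ψ z v * v with hy
  have hy1 : y ≠ 1 := fun h => hne (eq_inv_of_mul_eq_one_left h)
  have hyz : ψ z y = y := by rw [hy, map_mul, hzz, hcomm]
  obtain ⟨w, hw⟩ : ∃ w, ψ z w ≠ w := by
    by_contra h
    push Not at h
    refine hz1 (hψ ?_)
    rw [map_one]
    exact MulEquiv.ext h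
  set x := ψ z w * w⁻¹ with hx
  have hx1 : x ≠ 1 := fun h => hw (mul_inv_eq_one.1 h)
  have hxz : ψ z x = x⁻¹ := by rw [hx, map_mul, map_inv, hzz, mul_inv_rev, inv_inv]
  let F : Subgroup V :=
    { carrier := {a | ψ z a = a}
      one_mem' := map_one _
      mul_mem' := fun {a b} ha hb => by
        show ψ z (a * b) = a * b
        rw [map_mul, show ψ z a = a from ha, show ψ z b = b from hb]
      inv_mem' := fun {a} ha => by
        show ψ z a⁻¹ = a⁻¹
        rw [map_inv, show ψ z a = a from ha] }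
  let I : Subgroup V :=
    { carrier := {a | ψ z a = a⁻¹}
      one_mem' := by show ψ z 1 = 1⁻¹; rw [map_one, inv_one]
      mul_mem' := fun {a b} ha hb => by
        show ψ z (a * b) = (a * b)⁻¹
        rw [map_mul, show ψ z a = a⁻¹ from ha, show ψ z b = b⁻¹ from hb, mul_inv_rev, hcomm]
      inv_mem' := fun {a} ha => by
        show ψ z a⁻¹ = a⁻¹⁻¹
        rw [map_inv, show ψ z a = a⁻¹ from ha] }
  have hyI : y ∉ I := fun h => hy1 (by
    have h2 : y⁻¹ = y := (show ψ z y = y⁻¹ from h).symm.trans hyz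
    have h3 : y ^ 2 = 1 := by rw [pow_two]; nth_rw 1 [← h2]; exact inv_mul_cancel y
    have := hexp y; rw [pow_succ, h3, one_mul] at this; exact this)
  have hxF : x ∉ F := fun h => hx1 (by
    have h2 : x⁻¹ = x := hxz.symm.trans h
    have h3 : x ^ 2 = 1 := by rw [pow_two]; nth_rw 1 [← h2]; exact inv_mul_cancel x
    have := hexp x; rw [pow_succ, h3, one_mul] at this; exact this)
  have hprop : ∀ H : Subgroup V, (∃ a, a ∉ H) → ∀ g ∈ H, g ≠ 1 → ∀ h ∈ H, h ≠ 1 → h = g ∨ h = g⁻¹ := by
    intro H hH g hg hg1 h hh hh1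
    have hHc : Nat.card H ∣ 3 ^ 2 := by
      rw [show (3 : ℕ) ^ 2 = 9 by norm_num, ← hV]; exact card_subgroup_dvd_card H
    obtain ⟨k, hk, hk'⟩ := (Nat.dvd_prime_pow Nat.prime_three).1 hHc
    have hk2 : k ≤ 1 := by
      by_contra hgt
      obtain rfl : k = 2 := by omega
      obtain ⟨a, ha⟩ := hH
      exact ha (eq_top_of_card_eq H (by rw [hk', hV]; norm_num) ▸ mem_top a)
    have hgo : orderOf g = 3 := orderOf_eq_prime (hexp g) hg1
    have hzp : zpowers g = H := eq_of_le_of_card_ge (zpowers_le.2 hg) (by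
      rw [hk', Nat.card_zpowers, hgo]; exact (Nat.pow_le_pow_right (by norm_num) hk2).trans (by norm_num))
    rw [← hzp] at hh
    obtain ⟨i, hi⟩ := (isOfFinOrder_of_finite g).mem_powers_iff_mem_zpowers.2 hh
    have hi' : h = g ^ (i % 3) := by rw [← hgo, pow_mod_orderOf]; exact hi.symm
    have := Nat.mod_lt i (show 3 > 0 by norm_num)
    interval_cases hm : i % 3
    · exact absurd (by rw [hi', pow_zero]) hh1
    · exact Or.inl (by rw [hi', pow_one])
    · exact Or.inr (by rw [hi']; exact (inv_eq_of_mul_eq_one_right (by rw [← pow_succ']; exact hexp g)).symm)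
  have hcom : ∀ (t : T) (a : V), ψ z (ψ t a) = ψ t (ψ z a) := fun t a => by
    rw [← MulAut.mul_apply, ← map_mul, ← hz t, map_mul, MulAut.mul_apply]
  have hty : ∀ t, ψ t y = y ∨ ψ t y = y⁻¹ := fun t => by
    refine hprop F ⟨x, hxF⟩ y hyz hy1 _ ?_ ?_
    · show ψ z (ψ t y) = ψ t y
      rw [hcom, hyz]
    · exact fun h => hy1 ((ψ t).injective (h.trans (map_one _).symm))
  have htx : ∀ t, ψ t x = x ∨ ψ t x = x⁻¹ := fun t => by
    refine hprop I ⟨y, hyI⟩ x hxz hx1 _ ?_ ?_
    · show ψ z (ψ t x) = (ψ t x)⁻¹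
      rw [hcom, hxz, map_inv]
    · exact fun h => hx1 ((ψ t).injective (h.trans (map_one _).symm))
  let B : T → Bool × Bool := fun t => (decide (ψ t y = y), decide (ψ t x = x))
  have hB : Function.Injective B := by
    intro t t' he
    simp only [B, Prod.mk.injEq, decide_eq_decide] at he
    have e1 : ψ t y = ψ t' y := by
      rcases hty t with h | h <;> rcases hty t' with h' | h' <;> rw [h, h']
      · exact ((h'.symm.trans (he.1.1 h)).symm : y = y⁻¹)
      · exact ((h.symm.trans (he.1.2 h')) : y⁻¹ = y)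
    have e2 : ψ t x = ψ t' x := by
      rcases htx t with h | h <;> rcases htx t' with h' | h' <;> rw [h, h']
      · exact ((h'.symm.trans (he.2.1 h)).symm : x = x⁻¹)
      · exact ((h.symm.trans (he.2.2 h')) : x⁻¹ = x)
    let E : Subgroup V :=
      { carrier := {a | ψ t a = ψ t' a}
        one_mem' := by show ψ t 1 = ψ t' 1; rw [map_one, map_one]
        mul_mem' := fun {a b} ha hb => by
          show ψ t (a * b) = ψ t' (a * b)
          rw [map_mul, map_mul, show ψ t a = ψ t' a from ha, show ψ t b = ψ t' b from hb]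
        inv_mem' := fun {a} ha => by
          show ψ t a⁻¹ = ψ t' a⁻¹
          rw [map_inv, map_inv, show ψ t a = ψ t' a from ha] }
    refine hψ (MulEquiv.ext fun a => ?_)
    by_contra hne'
    rcases hprop E ⟨a, hne'⟩ y e1 hy1 x e2 hx1 with h | h
    · exact hxF (h ▸ hyz)
    · exact hxF (h ▸ F.inv_mem hyz)
  have hle := Nat.card_le_card_of_injective B hB
  rw [hT, Nat.card_prod, Nat.card_eq_fintype_card, Fintype.card_bool] at hle
  omega

/-- The normaliser is transitive on the non-central elements of a Sylow 3-subgroup. -/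
theorem isConj_noncentral (S : Sylow 3 M) {d e : ↥(S : Subgroup M)}
    (hd : d ∉ center ↥(S : Subgroup M)) (he : e ∉ center ↥(S : Subgroup M)) :
    ∃ g ∈ normalizer ((S : Subgroup M) : Set M), g * (d : M) * g⁻¹ = e := by
  classical
  haveI : Fact (Nat.Prime 2) := ⟨Nat.prime_two⟩
  have hM := noncomm hcard
  obtain ⟨a, b, hab⟩ := sylow_noncomm hcard hno ch S
  have hS := card_sylow_three hcard hno S
  have hexp : ∀ x : ↥(S : Subgroup M), x ^ 3 = 1 := fun x => Subtype.ext (exp_sylow_three hcard hno S x.2)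
  set N := normalizer ((S : Subgroup M) : Set M) with hN
  obtain ⟨hNc, -⟩ := card_normalizer_three hcard hno ch S
  set Z := center ↥(S : Subgroup M) with hZdef
  have hZ3 : Nat.card Z = 3 := Heis.card_center hS hab
  have hzc : ∀ k ∈ Z, ∀ x, x * k = k * x := fun k hk => mem_center_iff.1 hk
  set V := ↥(S : Subgroup M) ⧸ Z
  have hV : Nat.card V = 9 := by
    have h := Z.card_mul_index
    rw [hZ3, hS, index_eq_card] at h
    show Nat.card (↥(S : Subgroup M) ⧸ Z) = 9
    omega
  have hVexp : ∀ v : V, v ^ 3 = 1 := fun v => by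
    obtain ⟨x, rfl⟩ := QuotientGroup.mk_surjective v
    rw [← QuotientGroup.mk_pow, hexp, QuotientGroup.mk_one]
  obtain ⟨T⟩ := (inferInstance : Nonempty (Sylow 2 N))
  have hT : Nat.card ↥(T : Subgroup N) = 8 :=
    (card_sylow_eq (p := 2) (a := 3) (m := 27) (by rw [hNc]; norm_num) (by norm_num) T).trans (by norm_num)
  haveI : Nontrivial ↥(T : Subgroup N) := Finite.one_lt_card_iff_nontrivial.1 (by omega)
  haveI hcn := T.isPGroup'.center_nontrivial
  obtain ⟨⟨z0, hz0c⟩, hz0⟩ := exists_prime_orderOf_dvd_card' (G := center ↥(T : Subgroup N)) 2 (by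
    obtain ⟨k, hk⟩ := (T.isPGroup'.to_subgroup (center _)).exists_card_eq
    have h1 : 1 < Nat.card (center ↥(T : Subgroup N)) := Finite.one_lt_card_iff_nontrivial.2 hcn
    rw [hk] at h1 ⊢
    exact dvd_pow_self 2 (fun h => by rw [h] at h1; norm_num at h1))
  rw [Subgroup.orderOf_mk] at hz0
  let ι : ↥(T : Subgroup N) → M := fun t => ((t : N) : M)
  have hι : Function.Injective ι := fun x y h => Subtype.ext (Subtype.ext h)
  -- the action on `S` and on `V`
  let ρ : ↥(T : Subgroup N) →* MulAut ↥(S : Subgroup M) :=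
    (normalizerMonoidHom (S : Subgroup M)).comp (T : Subgroup N).subtype
  have hρ : ∀ t x, ((ρ t x : ↥(S : Subgroup M)) : M) = ι t * x * (ι t)⁻¹ := fun t x => rfl
  have hρZ : ∀ (σ : MulAut ↥(S : Subgroup M)), Z.map σ.toMonoidHom = Z := fun σ => by
    rw [hZdef]
    exact characteristic_iff_map_eq.1 inferInstance σ
  let ψ : ↥(T : Subgroup N) →* MulAut V :=
    { toFun := fun t => QuotientGroup.congr Z Z (ρ t) (hρZ _)
      map_one' := MulEquiv.ext fun v => by
        obtain ⟨x, rfl⟩ := QuotientGroup.mk_surjective v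
        show ((ρ 1 x : ↥(S : Subgroup M)) : V) = x
        rw [map_one, MulAut.one_apply]
      map_mul' := fun t t' => MulEquiv.ext fun v => by
        obtain ⟨x, rfl⟩ := QuotientGroup.mk_surjective v
        show ((ρ (t * t') x : ↥(S : Subgroup M)) : V) = ((ρ t (ρ t' x) : ↥(S : Subgroup M)) : V)
        rw [map_mul, MulAut.mul_apply] }
  have hψval : ∀ t (x : ↥(S : Subgroup M)), ψ t (x : V) = ((ρ t x : ↥(S : Subgroup M)) : V) := fun t x => rfl
  have hψ : Function.Injective ψ := by
    rw [← MonoidHom.ker_eq_bot_iff, eq_bot_iff]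
    intro t ht
    obtain ⟨k, hk⟩ := T.isPGroup' t
    refine mem_bot.2 (hι (eq_one_of_trivial_mod hcard hno ch S (k := k) (congrArg ι hk) fun s hs => ?_))
    have h : ψ t ((⟨s, hs⟩ : ↥(S : Subgroup M)) : V) = ((⟨s, hs⟩ : ↥(S : Subgroup M)) : V) := by
      rw [MonoidHom.mem_ker.1 ht, MulAut.one_apply]
    rw [hψval, QuotientGroup.eq] at h
    have h' : ρ t ⟨s, hs⟩ * (⟨s, hs⟩ : ↥(S : Subgroup M))⁻¹ ∈ Z := by
      have h2 := inv_mem h
      rw [mul_inv_rev, inv_inv] at h2
      have h3 := hzc _ h2 (⟨s, hs⟩ : ↥(S : Subgroup M))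
      rw [mul_inv_cancel_left, eq_comm] at h3
      have e : ρ t ⟨s, hs⟩ * (⟨s, hs⟩ : ↥(S : Subgroup M))⁻¹ = (⟨s, hs⟩ : ↥(S : Subgroup M))⁻¹ * ρ t ⟨s, hs⟩ := by
        nth_rw 1 [← h3]
        rw [mul_inv_cancel_right]
      rwa [e]
    exact ⟨_, h', rfl⟩
  have hzT : ∀ t : ↥(T : Subgroup N), t * z0 = z0 * t := mem_center_iff.1 hz0c
  have hz02 : z0 * z0 = 1 := by
    have h := pow_orderOf_eq_one z0
    rwa [hz0, pow_two] at h
  have hz01 : z0 ≠ 1 := fun h => by rw [h, orderOf_one] at hz0; norm_num at hz0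
  have hinvV : ∀ v : V, ψ z0 v = v⁻¹ := central_inverts hV hVexp hT ψ hψ hzT hz02 hz01
  -- every coset
  have hinvS : ∀ x : ↥(S : Subgroup M), ∃ k ∈ Z, ρ z0 x = x⁻¹ * k := fun x => by
    have h := hinvV (x : V)
    rw [hψval, ← QuotientGroup.mk_inv, eq_comm, QuotientGroup.eq, inv_inv] at h
    exact ⟨_, h, (inv_mul_cancel_left x _).symm⟩
  by_cases hreg : ∃ v : V, v ≠ 1 ∧ ∀ t, ψ t v = v → t = 1
  · obtain ⟨v, hv1, hfree⟩ := hreg
    let orb : ↥(T : Subgroup N) → {w : V // w ≠ 1} := fun t =>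
      ⟨ψ t v, fun h => hv1 ((ψ t).injective (h.trans (map_one _).symm))⟩
    have horb : Function.Surjective orb := by
      haveI := Fintype.ofFinite V
      haveI := Fintype.ofFinite ↥(T : Subgroup N)
      refine ((Fintype.bijective_iff_injective_and_card orb).2 ⟨fun t t' h => ?_, ?_⟩).2
      · have h' : ψ t v = ψ t' v := congrArg Subtype.val h
        refine inv_mul_eq_one.1 (hfree (t⁻¹ * t') ?_)
        rw [map_mul, MulAut.mul_apply, ← h', ← MulAut.mul_apply, ← map_mul, inv_mul_cancel, map_one,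
          MulAut.one_apply]
      · rw [← Nat.card_eq_fintype_card, hT, Fintype.card_subtype_compl, ← Nat.card_eq_fintype_card, hV,
          Fintype.card_subtype_eq]
    obtain ⟨t1, ht1⟩ := horb ⟨(d : V), fun h => hd ((QuotientGroup.eq_one_iff _).1 h)⟩
    obtain ⟨t2, ht2⟩ := horb ⟨(e : V), fun h => he ((QuotientGroup.eq_one_iff _).1 h)⟩
    have hte : ψ (t2 * t1⁻¹) (d : V) = (e : V) := by
      have h1 : ψ t1 v = (d : V) := congrArg Subtype.val ht1
      have h2 : ψ t2 v = (e : V) := congrArg Subtype.val ht2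
      rw [← h1, ← MulAut.mul_apply, ← map_mul, inv_mul_cancel_right, h2]
    rw [hψval, QuotientGroup.eq] at hte
    set d' := ρ (t2 * t1⁻¹) d with hd'
    have hd'Z : d' ∉ Z := fun h => he (by
      have := mul_mem h hte
      rwa [mul_inv_cancel_left] at this)
    obtain ⟨g, hg⟩ := Heis.exists_conj_eq_mul hS hab hexp hd'Z hte
    rw [mul_inv_cancel_left] at hg
    refine ⟨(g : M) * ι (t2 * t1⁻¹), mul_mem (le_normalizer g.2) ((t2 * t1⁻¹ : ↥(T : Subgroup N)) : N).2, ?_⟩
    rw [← hg]
    show _ = (g : M) * (ρ (t2 * t1⁻¹) d : ↥(S : Subgroup M)) * (g : M)⁻¹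
    rw [hρ]
    group
  · exfalso
    push Not at hreg
    have hzZ : ∀ k ∈ Z, ρ z0 k = k := by
      obtain ⟨k1, hk1, ea⟩ := hinvS a
      obtain ⟨k2, hk2, eb⟩ := hinvS b
      set c := a * b * a⁻¹ * b⁻¹ with hc
      have hcZ : c ∈ Z := by
        have h := Heis.commutator_mem hS hab a b
        rwa [commutatorElement_def] at h
      have hc1 : c ≠ 1 := fun h => hab (by
        rw [hc, mul_inv_eq_one, mul_inv_eq_iff_eq_mul] at h; exact h)
      have e1 : (a⁻¹ * b⁻¹) = c * (b⁻¹ * a⁻¹) := by
        have h : a * b = c * (b * a) := by rw [hc]; group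
        calc a⁻¹ * b⁻¹ = (b * a)⁻¹ := (mul_inv_rev b a).symm
          _ = c * (a * b)⁻¹ := by
            rw [h, mul_inv_rev c (b * a), ← mul_assoc, ← hzc c hcZ (b * a)⁻¹, mul_assoc, mul_inv_cancel, mul_one]
          _ = c * (b⁻¹ * a⁻¹) := by rw [mul_inv_rev]
      have hρc : ρ z0 c = c := by
        rw [hc]
        simp only [map_mul, map_inv, ea, eb]
        calc a⁻¹ * k1 * (b⁻¹ * k2) * (a⁻¹ * k1)⁻¹ * (b⁻¹ * k2)⁻¹
            = a⁻¹ * (k1 * b⁻¹) * (k2 * k1⁻¹) * a * k2⁻¹ * b := by group
          _ = a⁻¹ * b⁻¹ * (k1 * (k2 * k1⁻¹)) * a * (k2⁻¹ * b) := by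
            rw [← hzc k1 hk1 b⁻¹]; group
          _ = a⁻¹ * b⁻¹ * (a * (k1 * (k2 * k1⁻¹))) * (b * k2⁻¹) := by
            rw [hzc (k1 * (k2 * k1⁻¹)) (mul_mem hk1 (mul_mem hk2 (inv_mem hk1))) a, hzc k2⁻¹ (inv_mem hk2) b]
            group
          _ = a⁻¹ * b⁻¹ * a * ((k1 * (k2 * k1⁻¹)) * (b * k2⁻¹)) := by group
          _ = a⁻¹ * b⁻¹ * a * (b * (k1 * (k2 * k1⁻¹)) * k2⁻¹) := by
            rw [hzc (k1 * (k2 * k1⁻¹)) (mul_mem hk1 (mul_mem hk2 (inv_mem hk1))) b]; group
          _ = a⁻¹ * b⁻¹ * a * b := by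
            rw [show k1 * (k2 * k1⁻¹) = k2 by rw [← mul_assoc, ← hzc k1 hk1 k2, mul_inv_cancel_right],
              mul_inv_cancel_right]
          _ = a * b * a⁻¹ * b⁻¹ := by
            rw [e1, show c * (b⁻¹ * a⁻¹) * a * b = c by group, hc]
      have hzp : zpowers c = Z :=
        eq_of_le_of_card_ge (zpowers_le.2 hcZ) (le_of_eq (by rw [hZ3, Nat.card_zpowers, orderOf_eq_prime (hexp c) hc1]))
      intro k hk
      rw [← hzp] at hk
      obtain ⟨i, rfl⟩ := hk
      rw [map_zpow, hρc]
    -- every element is inverted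
    have hall : ∀ x : ↥(S : Subgroup M), x ∉ Z → ∃ v : M, orderOf v = 2 ∧
        v * (x : M) * v⁻¹ = (x : M)⁻¹ ∧ ∀ k ∈ Z, v * (k : M) * v⁻¹ = (k : M)⁻¹ := by
      intro x hx
      obtain ⟨k, hk, hρx⟩ := hinvS x
      obtain ⟨t, htv, ht1⟩ := hreg (x : V) fun h => hx ((QuotientGroup.eq_one_iff _).1 h)
      obtain ⟨j, hj⟩ : ∃ j, orderOf t = 2 ^ (j + 1) := by
        obtain ⟨n, hn⟩ := T.isPGroup' t
        obtain ⟨j, -, hj⟩ := (Nat.dvd_prime_pow Nat.prime_two).1 (orderOf_dvd_of_pow_eq_one hn)
        rcases j with _ | j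
        · exact absurd (orderOf_eq_one_iff.1 (by simpa using hj)) ht1
        · exact ⟨j, hj⟩
      set u := t ^ (2 ^ j) with hu
      have huo : orderOf u = 2 := by
        rw [hu, orderOf_pow, hj, Nat.gcd_eq_right (pow_dvd_pow 2 j.le_succ), pow_succ,
          Nat.mul_div_cancel_left _ (by positivity)]
      have huv : ψ u (x : V) = (x : V) := by
        have : ∀ n : ℕ, ψ (t ^ n) (x : V) = (x : V) := by
          intro n
          induction n with
          | zero => rw [pow_zero, map_one, MulAut.one_apply]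
          | succ n ih => rw [pow_succ, map_mul, MulAut.mul_apply, htv, ih]
        exact this _
      -- the element inverted by `z0`
      obtain ⟨c, hcdef⟩ : ∃ c, c = x * k := ⟨_, rfl⟩
      have hρk : ρ z0 k = k := hzZ k hk
      have hcinv : ρ z0 c = c⁻¹ := by
        rw [hcdef, map_mul, hρx, hρk, mul_inv_rev, mul_assoc, ← hzc _ (inv_mem hk) x⁻¹]
        congr 1
        refine eq_inv_of_mul_eq_one_left ?_
        rw [← pow_two, ← pow_succ]
        exact hexp k
      have hcV : (c : V) = (x : V) := by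
        rw [hcdef, QuotientGroup.mk_mul, (QuotientGroup.eq_one_iff _).2 hk, mul_one]
      have huc : ρ u c = c := by
        have h : ψ u (c : V) = (c : V) := by rw [hcV]; exact huv
        rw [hψval, eq_comm, QuotientGroup.eq] at h
        set k' := c⁻¹ * ρ u c with hk'
        have hk'Z : k' ∈ Z := h
        have e : ρ u c = c * k' := by rw [hk', mul_inv_cancel_left]
        have h1 : ρ z0 (ρ u c) = (ρ u c)⁻¹ := by
          rw [← MulAut.mul_apply, ← map_mul, ← hzT u, map_mul, MulAut.mul_apply, hcinv, map_inv]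
        rw [e, map_mul, hcinv, hzZ k' hk'Z, mul_inv_rev, hzc k' hk'Z c⁻¹] at h1
        have h2 : k' = k'⁻¹ := mul_right_cancel h1
        have h3 : k' ^ 2 = 1 := by rw [pow_two]; nth_rw 2 [h2]; exact mul_inv_cancel k'
        have h4 := hexp k'
        rw [pow_succ, h3, one_mul] at h4
        rw [e, h4, mul_one]
      have huz : ∀ k' ∈ Z, ρ u k' = k'⁻¹ := by
        intro k' hk'Z
        by_cases hk1 : k' = 1
        · rw [hk1, map_one, inv_one]
        have hmem : ρ u k' ∈ Z := (hρZ (ρ u)).le ⟨k', hk'Z, rfl⟩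
        have hzp : zpowers k' = Z := eq_of_le_of_card_ge (zpowers_le.2 hk'Z)
          (le_of_eq (by rw [hZ3, Nat.card_zpowers, orderOf_eq_prime (hexp k') hk1]))
        rw [← hzp] at hmem
        obtain ⟨i, hi⟩ := (isOfFinOrder_of_finite k').mem_powers_iff_mem_zpowers.2 hmem
        have hi' : ρ u k' = k' ^ (i % 3) := by
          have ho := orderOf_eq_prime (hexp k') hk1
          have h := pow_mod_orderOf k' i
          rw [ho] at h
          exact hi.symm.trans h.symm
        have := Nat.mod_lt i (show 3 > 0 by norm_num)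
        interval_cases hm : i % 3
        · exact absurd ((ρ u).injective (hi'.trans (by rw [pow_zero, map_one]))) hk1
        · exfalso
          rw [pow_one] at hi'
          have hle : (Z ⊔ zpowers c).map (S : Subgroup M).subtype ≤
              (S : Subgroup M) ⊓ centralizer ({ι u} : Set M) := by
            refine le_inf (map_subtype_le _) ?_
            rw [map_le_iff_le_comap]
            refine sup_le (fun q hq => ?_) (zpowers_le.2 ?_)
            · rw [← hzp] at hq
              obtain ⟨i, rfl⟩ := hq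
              refine mem_centralizer_singleton_iff.2 ?_
              have h : ι u * (k' : M) * (ι u)⁻¹ = k' := congrArg Subtype.val hi'
              have h' := ((show Commute (ι u) (k' : M) from mul_inv_eq_iff_eq_mul.1 h).zpow_right i).symm.eq
              simpa using h'
            · refine mem_centralizer_singleton_iff.2 ?_
              exact (mul_inv_eq_iff_eq_mul.1 (show ι u * (c : M) * (ι u)⁻¹ = c from congrArg Subtype.val huc)).symm
          have h9 : 3 < Nat.card ↥(Z ⊔ zpowers c) := by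
            by_contra hlt
            push Not at hlt
            have hZe : Z = Z ⊔ zpowers c := eq_of_le_of_card_ge le_sup_left (by rw [hZ3]; exact hlt)
            have hcZ : c ∈ Z := hZe ▸ mem_sup_right (mem_zpowers c)
            exact hx ((QuotientGroup.eq_one_iff _).1 (hcV ▸ (QuotientGroup.eq_one_iff _).2 hcZ))
          have := (Subgroup.card_le_of_le hle).trans (card_inf_centralizer_le hcard hno ch S
            (by show orderOf ((u : N) : M) = 2; rw [Subgroup.orderOf_coe, Subgroup.orderOf_coe, huo]))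
          rw [card_map_of_injective (S : Subgroup M).subtype_injective] at this
          omega
        · rw [hi']
          exact (inv_eq_of_mul_eq_one_right (by rw [← pow_succ']; exact hexp k')).symm
      have hvo : orderOf (ι (u * z0)) = 2 := by
        show orderOf (((u * z0 : ↥(T : Subgroup N)) : N) : M) = 2
        rw [Subgroup.orderOf_coe, Subgroup.orderOf_coe, CfsgLib.Involutions.orderOf_eq_two_iff]
        have hu2 : u * u = 1 := CfsgLib.Involutions.mul_self_eq_one huo
        refine ⟨by rw [mul_assoc, ← mul_assoc z0, ← hzT u, mul_assoc u z0 z0, hz02, mul_one, hu2], fun h => ?_⟩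
        have hue : u = z0 := by rw [← mul_left_inj z0]; exact h.trans hz02.symm
        rw [hue, hcinv] at huc
        have h3 : c ^ 2 = 1 := by rw [pow_two]; nth_rw 1 [← huc]; exact inv_mul_cancel c
        have h4 := hexp c
        rw [pow_succ, h3, one_mul] at h4
        exact hx ((QuotientGroup.eq_one_iff _).1 (by rw [← hcV, h4, QuotientGroup.mk_one]))
      have hvc : ρ (u * z0) c = c⁻¹ := by rw [map_mul, MulAut.mul_apply, hcinv, map_inv, huc]
      have hvk : ∀ k' ∈ Z, ρ (u * z0) k' = k'⁻¹ := fun k' hk' => by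
        rw [map_mul, MulAut.mul_apply, hzZ k' hk', huz k' hk']
      refine ⟨ι (u * z0), hvo, ?_, fun k' hk' => congrArg Subtype.val (hvk k' hk')⟩
      have ex : x = c * k⁻¹ := by rw [hcdef, mul_inv_cancel_right]
      have hvx : ρ (u * z0) x = x⁻¹ := by
        rw [ex, map_mul, map_inv, hvc, hvk k hk, mul_inv_rev, inv_inv, hzc k hk c⁻¹]
      exact congrArg Subtype.val hvx
    obtain ⟨v0, hv0, -, hv0Z⟩ := hall a fun h => hab (hzc a h b).symm
    refine not_all_inverted ch hM hS (fun s hs => exp_sylow_three hcard hno S hs) fun s hs _ => ?_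
    by_cases hsZ : (⟨s, hs⟩ : ↥(S : Subgroup M)) ∈ Z
    · exact ⟨v0, hv0, hv0Z _ hsZ⟩
    · obtain ⟨v, hv, hvs, -⟩ := hall _ hsZ
      exact ⟨v, hv, hvs⟩

/-- Two Sylow 3-subgroups meet trivially. -/
theorem inter_eq_bot {P R : Sylow 3 M} (hne : P ≠ R) : (P : Subgroup M) ⊓ (R : Subgroup M) = ⊥ := by
  classical
  haveI : Fintype (Sylow 3 M) := Fintype.ofFinite _
  obtain ⟨a, b, hab⟩ := sylow_noncomm hcard hno ch P
  have hS := card_sylow_three hcard hno P
  set Z := center ↥(P : Subgroup M) with hZdef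
  have hZ3 : Nat.card Z = 3 := Heis.card_center hS hab
  obtain ⟨hNc, hn28⟩ := card_normalizer_three hcard hno ch P
  have hinter : ∀ {Q Q' : Sylow 3 M}, Q ≠ Q' → ∀ (X : Subgroup M), X ≤ (Q : Subgroup M) → X ≤ (Q' : Subgroup M) →
      Nat.card X ≤ 3 := fun h X h1 h2 =>
    (Subgroup.card_le_of_le (le_inf h1 h2)).trans (inter_le_three hcard hno ch h)
  -- central elements lie only in `P`
  have hcentral : ∀ z : ↥(P : Subgroup M), z ∈ Z → z ≠ 1 → ∀ Q : Sylow 3 M, (z : M) ∈ (Q : Subgroup M) → Q = P := by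
    intro z hz hz1 Q hzQ
    set C := centralizer ({(z : M)} : Set M) with hC
    have hPC : (P : Subgroup M) ≤ C := fun s hs =>
      mem_centralizer_singleton_iff.2 (congrArg Subtype.val (mem_center_iff.1 hz ⟨s, hs⟩))
    have hC7 : ¬ 7 ∣ Nat.card C := fun h => by
      haveI : Fact (Nat.Prime 7) := ⟨by norm_num⟩
      obtain ⟨⟨x, hxC⟩, hx⟩ := exists_prime_orderOf_dvd_card' 7 h
      rw [Subgroup.orderOf_mk] at hx
      have hzo : orderOf (z : M) = 3 :=
        orderOf_eq_prime (exp_sylow_three hcard hno P z.2) fun e => hz1 (Subtype.ext e)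
      have hc : Commute x (z : M) := mem_centralizer_singleton_iff.1 hxC
      have := hc.orderOf_mul_eq_mul_orderOf_of_coprime (by rw [hx, hzo]; norm_num)
      rw [hx, hzo] at this
      exact hno.twentyone (x * (z : M)) (by rw [this])
    have huniq : Subsingleton (Sylow 3 C) := by
      have hcard' : Nat.card (Sylow 3 C) = 1 := by
        have hmod : Nat.card (Sylow 3 C) ≡ 1 [MOD 3 ^ 2] := by
          by_contra h
          obtain ⟨A, B, hAB, hle⟩ := exists_sylow_inter 3 2 h
          obtain ⟨A', hA'⟩ := A.exists_comap_subtype_eq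
          obtain ⟨B', hB'⟩ := B.exists_comap_subtype_eq
          have hA'B' : A' ≠ B' := fun e => hAB (Sylow.ext (by rw [← hA', ← hB', e]))
          have hAc : Nat.card ↥(A : Subgroup C) = 27 := by
            obtain ⟨n, hn⟩ := A.isPGroup'.exists_card_eq
            have h1 : Nat.card ↥(A : Subgroup C) ≤ 27 := by
              rw [← card_map_of_injective C.subtype_injective, ← card_sylow_three hcard hno A']
              exact Subgroup.card_le_of_le (map_le_iff_le_comap.2 (le_of_eq hA'.symm))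
            have h27C : 27 ∣ Nat.card C := hS ▸ card_dvd_of_le hPC
            have h2 := A.pow_dvd_card_of_pow_dvd_card (n := 3) (by simpa using h27C)
            exact le_antisymm h1 (Nat.le_of_dvd Nat.card_pos (by simpa using h2))
          have hX := hinter hA'B' ((A : Subgroup C) ⊓ (B : Subgroup C) |>.map C.subtype)
            (map_le_iff_le_comap.2 (by rw [← Subgroup.subgroupOf]; exact inf_le_left.trans (le_of_eq hA'.symm)))
            (map_le_iff_le_comap.2 (by rw [← Subgroup.subgroupOf]; exact inf_le_right.trans (le_of_eq hB'.symm)))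
          rw [card_map_of_injective C.subtype_injective] at hX
          have hi := ((B : Subgroup C).subgroupOf (A : Subgroup C)).card_mul_index
          rw [hAc, ← inf_subgroupOf_left, Nat.card_congr (subgroupOfEquivOfLe inf_le_left).toEquiv] at hi
          rw [inf_subgroupOf_left] at hi
          norm_num at hle
          nlinarith
        have hd : Nat.card (Sylow 3 C) ∣ 32 := by
          have h27C : 27 ∣ Nat.card C := hS ▸ card_dvd_of_le hPC
          obtain ⟨Q0⟩ := (inferInstance : Nonempty (Sylow 3 C))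
          have h2 : 27 ∣ Nat.card ↥(Q0 : Subgroup C) := by
            simpa using Q0.pow_dvd_card_of_pow_dvd_card (n := 3) (by simpa using h27C)
          have h3 : 27 ∣ Nat.card ↥(normalizer ((Q0 : Subgroup C) : Set C)) := h2.trans (card_dvd_of_le le_normalizer)
          have hmul := card_sylow_mul_card_normalizer Q0
          obtain ⟨q, hq⟩ := h3
          rw [hq] at hmul
          have h4 : Nat.card (Sylow 3 C) * 27 ∣ 6048 :=
            (Dvd.intro q (by rw [← hmul]; ring)).trans (hcard ▸ card_subgroup_dvd_card C)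
          have h5 : Nat.card (Sylow 3 C) ∣ 32 * 7 := by
            obtain ⟨r, hr⟩ := h4
            exact ⟨r, by linarith⟩
          refine Nat.Coprime.dvd_of_dvd_mul_right ((Nat.Prime.coprime_iff_not_dvd (by norm_num)).2 fun h7 => ?_).symm h5
          exact hC7 (h7.trans (Dvd.intro _ hmul))
        unfold Nat.ModEq at hmod
        obtain ⟨k, hk, hk'⟩ := (Nat.dvd_prime_pow Nat.prime_two).1 (show Nat.card (Sylow 3 C) ∣ 2 ^ 5 by simpa using hd)
        rw [hk'] at hmod ⊢
        interval_cases k <;> revert hmod <;> norm_num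
      exact (Nat.card_eq_one_iff_unique.1 hcard').1
    -- `C ⊓ Q` lies in `P`
    have hle : (Q : Subgroup M) ⊓ C ≤ (P : Subgroup M) := by
      set Y := ((Q : Subgroup M) ⊓ C).subgroupOf C
      have hY : IsPGroup 3 Y := by
        refine (IsPGroup.to_le Q.isPGroup' inf_le_left).of_equiv (subgroupOfEquivOfLe inf_le_right).symm
      obtain ⟨R', hR'⟩ := hY.exists_le_sylow
      intro g hg
      have hg' : (⟨g, hg.2⟩ : C) ∈ (R' : Subgroup C) := hR' hg
      rw [Subsingleton.elim R' (P.subtype hPC)] at hg'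
      exact hg'
    by_contra hQP
    have h3 := hinter (Ne.symm hQP) ((Q : Subgroup M) ⊓ C) hle inf_le_left
    -- but the centraliser of an element in a group of order 27 has order at least 9
    obtain ⟨a', b', hab'⟩ := sylow_noncomm hcard hno ch Q
    have hQ := card_sylow_three hcard hno Q
    have hsup : (center ↥(Q : Subgroup M) ⊔ zpowers (⟨z, hzQ⟩ : ↥(Q : Subgroup M))).map (Q : Subgroup M).subtype ≤
        (Q : Subgroup M) ⊓ C := by
      refine le_inf (map_subtype_le _) (map_le_iff_le_comap.2 (sup_le ?_ (zpowers_le.2 ?_)))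
      · intro k hk
        exact mem_centralizer_singleton_iff.2 (congrArg Subtype.val (mem_center_iff.1 hk ⟨z, hzQ⟩)).symm
      · exact mem_centralizer_singleton_iff.2 rfl
    have h3' := (Subgroup.card_le_of_le hsup).trans h3
    rw [card_map_of_injective (Q : Subgroup M).subtype_injective] at h3'
    have heq : center ↥(Q : Subgroup M) = center ↥(Q : Subgroup M) ⊔ zpowers (⟨z, hzQ⟩ : ↥(Q : Subgroup M)) :=
      eq_of_le_of_card_ge le_sup_left (by rw [Heis.card_center hQ hab']; exact h3')
    have hzc : (⟨z, hzQ⟩ : ↥(Q : Subgroup M)) ∈ center ↥(Q : Subgroup M) := heq ▸ mem_sup_right (mem_zpowers _)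
    have hQC : (Q : Subgroup M) ≤ C := fun s hs =>
      mem_centralizer_singleton_iff.2 (congrArg Subtype.val (mem_center_iff.1 hzc ⟨s, hs⟩))
    have := Subgroup.card_le_of_le (le_inf le_rfl hQC)
    rw [hQ] at this
    omega
  -- the others through a non-central element
  let others : ↥(P : Subgroup M) → Finset (Sylow 3 M) := fun d =>
    Finset.univ.filter fun Q => Q ≠ P ∧ (d : M) ∈ (Q : Subgroup M)
  have hconst : ∀ d e : ↥(P : Subgroup M), d ∉ Z → e ∉ Z → (others d).card ≤ (others e).card := by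
    intro d e hd he
    obtain ⟨g, hg, hge⟩ := isConj_noncentral hcard hno ch P hd he
    have hgP : g • P = P := Sylow.smul_eq_iff_mem_normalizer.2 hg
    refine Finset.card_le_card_of_injOn (fun Q => g • Q) (fun Q hQ => ?_) (fun _ _ _ _ h => MulAction.injective g h)
    simp only [others, Finset.coe_filter, Finset.mem_univ, true_and, Set.mem_ofPred_eq] at hQ ⊢
    refine ⟨fun h => hQ.1 (MulAction.injective g (h.trans hgP.symm)), ?_⟩
    rw [← hge]
    exact ⟨(d : M), hQ.2, rfl⟩
  have hmult : ∀ d : ↥(P : Subgroup M), d ∉ Z → 3 ∣ (others d).card := by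
    intro d hd
    obtain ⟨k, hk, hk1⟩ : ∃ k ∈ Z, k ≠ 1 := by
      obtain ⟨⟨k, hk⟩, hk'⟩ := exists_prime_orderOf_dvd_card' (G := Z) 3 (dvd_of_eq hZ3.symm)
      exact ⟨k, hk, fun e => by subst e; simp at hk'⟩
    have hkP : (k : M) ∈ normalizer ((P : Subgroup M) : Set M) := le_normalizer k.2
    have hkd : (k : M) * d * (k : M)⁻¹ = d :=
      mul_inv_eq_iff_eq_mul.2 (congrArg Subtype.val (mem_center_iff.1 hk d)).symm
    have hgen : ∀ g ∈ zpowers (k : M), g • P = P ∧ g * d * g⁻¹ = (d : M) := by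
      rintro g ⟨i, rfl⟩
      refine ⟨Sylow.smul_eq_iff_mem_normalizer.2 (zpow_mem hkP i), ?_⟩
      have hc : Commute (k : M) (d : M) := mul_inv_eq_iff_eq_mul.1 hkd
      exact mul_inv_eq_iff_eq_mul.2 (hc.zpow_left i).eq
    letI : MulAction (zpowers (k : M)) {Q // Q ∈ others d} :=
      { smul := fun g Q => ⟨(g : M) • (Q : Sylow 3 M), by
          have hQ := Q.2
          simp only [others, Finset.mem_filter, Finset.mem_univ, true_and] at hQ ⊢
          refine ⟨fun h => hQ.1 (MulAction.injective (g : M) (h.trans (hgen g g.2).1.symm)), ?_⟩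
          exact ⟨(d : M), hQ.2, (hgen g g.2).2⟩⟩
        one_smul := fun Q => Subtype.ext (one_smul M (Q : Sylow 3 M))
        mul_smul := fun g h Q => Subtype.ext (mul_smul (g : M) (h : M) (Q : Sylow 3 M)) }
    have hp : IsPGroup 3 (zpowers (k : M)) := by
      refine IsPGroup.of_card (n := 1) ?_
      rw [Nat.card_zpowers, pow_one]
      exact orderOf_eq_prime (exp_sylow_three hcard hno P k.2) fun e => hk1 (Subtype.ext e)
    have hempty : IsEmpty (MulAction.fixedPoints (zpowers (k : M)) {Q // Q ∈ others d}) := by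
      refine ⟨fun ⟨⟨Q, hQ⟩, hfix⟩ => ?_⟩
      simp only [others, Finset.mem_filter, Finset.mem_univ, true_and] at hQ
      have hkQ : (k : M) • Q = Q := congrArg Subtype.val (hfix ⟨(k : M), mem_zpowers _⟩)
      have hkN := Sylow.smul_eq_iff_mem_normalizer.1 hkQ
      have hkQ' : (k : M) ∈ (Q : Subgroup M) :=
        ((IsPGroup.inf_normalizer_sylow hp Q).le ⟨mem_zpowers _, hkN⟩).2
      exact hQ.1 (hcentral k hk hk1 Q hkQ')
    have hmod := hp.card_modEq_card_fixedPoints {Q // Q ∈ others d}
    rw [Nat.card_of_isEmpty (α := MulAction.fixedPoints (zpowers (k : M)) {Q // Q ∈ others d}),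
      Nat.card_eq_fintype_card, Fintype.card_coe] at hmod
    exact Nat.modEq_zero_iff_dvd.1 hmod
  by_contra hbot
  obtain ⟨x, hx, hx1⟩ : ∃ x ∈ (P : Subgroup M) ⊓ (R : Subgroup M), x ≠ 1 := by
    by_contra h
    push Not at h
    exact hbot (eq_bot_iff.2 fun x hx => mem_bot.2 (h x hx))
  have hxZ : (⟨x, hx.1⟩ : ↥(P : Subgroup M)) ∉ Z := fun h =>
    hne (hcentral _ h (fun e => hx1 (congrArg Subtype.val e)) R hx.2).symm
  have hpos : 3 ≤ (others ⟨x, hx.1⟩).card :=
    Nat.le_of_dvd (Finset.card_pos.2 ⟨R, by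
      simp only [others, Finset.mem_filter, Finset.mem_univ, true_and]
      exact ⟨Ne.symm hne, hx.2⟩⟩) (hmult _ hxZ)
  -- count the pairs
  haveI : Fintype ↥(P : Subgroup M) := Fintype.ofFinite _
  set Dset := (Finset.univ : Finset ↥(P : Subgroup M)).filter (fun d => d ∉ Z) with hD
  set Pairs := (Dset ×ˢ (Finset.univ.erase P)).filter fun p : ↥(P : Subgroup M) × Sylow 3 M =>
    (p.1 : M) ∈ (p.2 : Subgroup M) with hPairs
  have hDcard : Dset.card = 24 := by
    have h := Finset.card_filter_add_card_filter_not (s := (Finset.univ : Finset ↥(P : Subgroup M))) (fun d => d ∈ Z)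
    have h3 : (Finset.univ.filter fun d : ↥(P : Subgroup M) => d ∈ Z).card = 3 := by
      rw [← Fintype.card_subtype, ← Nat.card_eq_fintype_card]; exact hZ3
    rw [h3, Finset.card_univ, ← Nat.card_eq_fintype_card, hS, ← hD] at h
    omega
  have hlow : 72 ≤ Pairs.card := by
    have h : ∀ d ∈ Dset, 3 ≤ (others d).card := fun d hd =>
      hpos.trans (hconst _ _ hxZ (Finset.mem_filter.1 hd).2)
    have heq : Pairs.card = ∑ d ∈ Dset, (others d).card := by
      rw [hPairs, Finset.card_filter, Finset.sum_product]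
      refine Finset.sum_congr rfl fun d _ => ?_
      rw [← Finset.card_filter]
      congr 1
      ext Q
      simp [others, and_comm]
    rw [heq]
    calc 72 = ∑ _d ∈ Dset, 3 := by rw [Finset.sum_const, hDcard]; rfl
      _ ≤ _ := Finset.sum_le_sum h
  have hup : Pairs.card ≤ 54 := by
    have heq : Pairs.card = ∑ Q ∈ Finset.univ.erase P, (Dset.filter fun d : ↥(P : Subgroup M) =>
        (d : M) ∈ (Q : Subgroup M)).card := by
      rw [hPairs, Finset.card_filter, Finset.sum_product_right]
      exact Finset.sum_congr rfl fun Q _ => (Finset.card_filter _ _).symm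
    rw [heq]
    calc _ ≤ ∑ _Q ∈ Finset.univ.erase P, 2 := Finset.sum_le_sum fun Q hQ => ?_
      _ = 54 := by
        rw [Finset.sum_const, Finset.card_erase_of_mem (Finset.mem_univ P), Finset.card_univ,
          ← Nat.card_eq_fintype_card, hn28]
        rfl
    set F := (Finset.univ : Finset ↥(P : Subgroup M)).filter
      (fun d : ↥(P : Subgroup M) => (d : M) ∈ (Q : Subgroup M)) with hF
    have hF3 : F.card ≤ 3 := by
      refine le_trans (le_of_eq ?_) (inter_le_three hcard hno ch (Ne.symm (Finset.mem_erase.1 hQ).1))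
      rw [hF, ← Fintype.card_subtype, ← Nat.card_eq_fintype_card]
      exact Nat.card_congr (Equiv.subtypeSubtypeEquivSubtypeInter _ _)
    have hsub : (Dset.filter fun d : ↥(P : Subgroup M) => (d : M) ∈ (Q : Subgroup M)) ⊂ F := by
      refine Finset.ssubset_iff_of_subset (fun d hd => ?_) |>.2 ⟨1, ?_, ?_⟩
      · simp only [Finset.mem_filter, hF, Finset.mem_univ, true_and] at hd ⊢; exact hd.2
      · simp [hF, one_mem]
      · simp [hD, one_mem]
    have := Finset.card_lt_card hsub
    omega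
  omega

end CfsgLib.GTwoTwo
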