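import Cfsg.Agent.Lib.GTwoTwo.Principal

/-!
The characters of degree 6 and 27 on elementary subgroups of a simple group of order 6048.
-/

set_option autoImplicit false
set_option linter.style.haveILetI false

open Cfsg CfsgLib.CharTheory CfsgLib.SmallGroups Subgroup
open scoped ComplexConjugate

namespace CfsgLib.GTwoTwo

universe u

variable {M : Type u} [Group M] [Fintype M]

/-- A character summed along a homomorphism. -/
theorem exists_nat_sum_hom {χ : M → ℂ} (hχ : IsCharacter M χ) {H : Type u} [Group H] [Fintype H] (φ : H →* M) :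
    ∃ m : ℕ, ∑ h : H, χ (φ h) = (Nat.card H : ℂ) * m := by
  classical
  obtain ⟨m, hm⟩ := exists_nat_sum (Coherence.isCharacter_comp hχ φ) (⊤ : Subgroup H)
  refine ⟨m, ?_⟩
  rw [← Subgroup.topEquiv.toEquiv.sum_comp]
  rw [show Nat.card H = Nat.card (⊤ : Subgroup H) from (Nat.card_congr Subgroup.topEquiv.toEquiv).symm]
  exact hm

/-- The two small characters. -/
structure SmallChars (M : Type u) [Group M] [Fintype M] where
  χ6 : IrrCharacter M
  χ27 : IrrCharacter M
  ne6 : trivIrr M ≠ χ6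
  deg6 : (χ6 : M → ℂ) 1 = 6
  deg27 : (χ27 : M → ℂ) 1 = 27
  inv : ∀ u : M, orderOf u = 2 → (χ6 : M → ℂ) u = -2 ∧ (χ27 : M → ℂ) u = 3
  van : ∀ g : M, 3 ∣ orderOf g → (χ27 : M → ℂ) g = 0

variable [IsSimpleGroup M]

theorem smallChars_nonempty (hcard : Nat.card M = 6048) (hno : NoOrders M) : Nonempty (SmallChars M) := by
  obtain ⟨a, b, h1, -, h3, h4, h5, h6⟩ := exists_chars hcard hno
  exact ⟨⟨a, b, h1, h3, h4, h5, h6⟩⟩

variable (ch : SmallChars M) (hM : ¬ IsMulCommutative M)
include ch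

omit [IsSimpleGroup M] in
/-- No involution centralises a subgroup of order 9. -/
theorem not_commute_nine {D : Subgroup M} (hD : Nat.card D = 9) (hexp : ∀ d ∈ D, d ^ 3 = 1) {u : M}
    (hu : orderOf u = 2) (hcomm : ∀ d ∈ D, u * d = d * u) : False := by
  classical
  have hu2 : u * u = 1 := CfsgLib.Involutions.mul_self_eq_one hu
  have hc : ∀ (d : D) (w : zpowers u), Commute (D.subtype d) ((zpowers u).subtype w) := by
    rintro d ⟨w, hw⟩
    obtain ⟨k, rfl⟩ := hw
    exact (Commute.zpow_right (show Commute (d : M) u from (hcomm d d.2).symm) k)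
  set φ := MonoidHom.noncommCoprod D.subtype (zpowers u).subtype hc
  obtain ⟨m, hm⟩ := exists_nat_sum_hom (IsIrrCharacter.isCharacter ch.χ27.2) φ
  have hz : ∀ (d : D) (w : zpowers u), d ≠ 1 → (ch.χ27 : M → ℂ) (φ (d, w)) = 0 := by
    intro d w hd
    refine ch.van _ ?_
    by_contra h3
    have hwd : (φ (d, w)) ^ 2 = (d : M) ^ 2 := by
      show ((d : M) * w) ^ 2 = _
      rw [(show Commute (d : M) w from hc d w).mul_pow]
      obtain ⟨k, hk⟩ := w.2
      have : (w : M) ^ 2 = 1 := by
        rw [← hk, pow_two]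
        show u ^ k * u ^ k = 1
        rw [← (Commute.refl u).mul_zpow, hu2, one_zpow]
      rw [this, mul_one]
    have hn := congrArg (· ^ orderOf (φ (d, w))) hwd
    simp only [← pow_mul, mul_comm 2] at hn
    rw [pow_mul, pow_orderOf_eq_one, one_pow, eq_comm] at hn
    have hd3 : orderOf (d : M) = 3 := by
      haveI : Fact (Nat.Prime 3) := ⟨Nat.prime_three⟩
      exact orderOf_eq_prime (hexp d d.2) fun e => hd (Subtype.ext e)
    have h := orderOf_dvd_of_pow_eq_one hn
    rw [hd3] at h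
    omega
  have hcu : Fintype.card (zpowers u) = 2 := by rw [← Nat.card_eq_fintype_card, Nat.card_zpowers, hu]
  rw [Fintype.sum_prod_type, Finset.sum_eq_single 1 (fun d _ hd => Finset.sum_eq_zero fun w _ => hz d w hd)
    (fun h => absurd (Finset.mem_univ _) h), Nat.card_prod, hD, Nat.card_eq_fintype_card, hcu] at hm
  have hs : ∑ w : zpowers u, (ch.χ27 : M → ℂ) (φ (1, w)) = 30 := by
    rw [← (finEquivZPowers (isOfFinOrder_of_finite u)).sum_comp, ← (finCongr hu.symm).sum_comp,
      Fin.sum_univ_two]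
    simp only [φ, MonoidHom.noncommCoprod_apply, map_one, one_mul, Subgroup.coe_subtype, finEquivZPowers_apply,
      finCongr_apply, Fin.val_cast, Fin.val_zero, Fin.val_one, pow_zero, pow_one, ch.deg27, (ch.inv u hu).2]
    norm_num
  rw [hs] at hm
  have : (30 : ℕ) = 18 * m := by
    apply Nat.cast_injective (R := ℂ); push_cast; linear_combination hm
  omega

include hM in
/-- The value at an element of order three inverted by an involution. -/
theorem value_inverted {s u : M} (hs : s ^ 3 = 1) (hs1 : s ≠ 1) (hu : orderOf u = 2)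
    (hus : u * s * u⁻¹ = s⁻¹) : (ch.χ6 : M → ℂ) s = 0 ∨ (ch.χ6 : M → ℂ) s = 3 := by
  classical
  haveI : Fact (Nat.Prime 3) := ⟨Nat.prime_three⟩
  have hso : orderOf s = 3 := orderOf_eq_prime hs hs1
  have hu2 : u * u = 1 := CfsgLib.Involutions.mul_self_eq_one hu
  obtain ⟨A, hA⟩ : ∃ A : ℤ, (ch.χ6 : M → ℂ) s = A :=
    CfsgLib.Coherence.exists_int_of_forall_pow_eq (IsIrrCharacter.isGeneralizedCharacter ch.χ6.2) s
      fun t ht => by
        rw [hso] at ht
        rw [← pow_mod_orderOf, hso]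
        have h12 : t % 3 = 1 ∨ t % 3 = 2 := by
          have h0 : t % 3 ≠ 0 := fun h => by
            have h' := Nat.dvd_gcd (Nat.dvd_of_mod_eq_zero h) (dvd_refl 3)
            rw [ht.gcd_eq_one] at h'
            norm_num at h'
          omega
        rcases h12 with h | h <;> rw [h]
        · rw [pow_one]
        · refine irr_apply_eq_of_isConj (IsConj.symm (isConj_iff.2 ⟨u, ?_⟩)) ch.χ6
          rw [hus, inv_eq_of_mul_eq_one_right (b := s ^ 2) (by rw [← pow_succ']; exact hs)]
  -- the dihedral subgroup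
  let D : Subgroup M :=
    { carrier := {g | g ∈ zpowers s ∨ g * u ∈ zpowers s}
      one_mem' := Or.inl (one_mem _)
      mul_mem' := by
        have hconj : ∀ w ∈ zpowers s, u * w * u ∈ zpowers s := by
          rintro w ⟨k, rfl⟩
          refine ⟨-k, ?_⟩
          show s ^ (-k) = u * s ^ k * u
          calc s ^ (-k) = (s⁻¹) ^ k := by rw [inv_zpow, zpow_neg]
            _ = (u * s * u⁻¹) ^ k := by rw [hus]
            _ = u * s ^ k * u := by rw [conj_zpow, inv_eq_of_mul_eq_one_right hu2]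
        rintro a b (ha | ha) (hb | hb)
        · exact Or.inl (mul_mem ha hb)
        · exact Or.inr (by rw [mul_assoc]; exact mul_mem ha hb)
        · refine Or.inr ?_
          have e : a * b * u = a * u * (u * b * u) := by
            simp only [← mul_assoc]
            rw [mul_assoc a u u, hu2, mul_one]
          rw [e]
          exact mul_mem ha (hconj b hb)
        · refine Or.inl ?_
          have e : a * b = a * u * (u * (b * u) * u) := by
            simp only [← mul_assoc]
            rw [mul_assoc a u u, hu2, mul_one, mul_assoc (a * b) u u, hu2, mul_one]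
          rw [e]
          exact mul_mem ha (hconj _ hb)
      inv_mem' := by
        rintro a (ha | ha)
        · exact Or.inl (inv_mem ha)
        · refine Or.inr ?_
          obtain ⟨k, hk⟩ := inv_mem ha
          refine ⟨-k, ?_⟩
          have hk' : s ^ k = (a * u)⁻¹ := hk
          show s ^ (-k) = a⁻¹ * u
          calc s ^ (-k) = (s⁻¹) ^ k := by rw [inv_zpow, zpow_neg]
            _ = u * s ^ k * u⁻¹ := by rw [← hus, conj_zpow]
            _ = u * (a * u)⁻¹ * u⁻¹ := by rw [hk']
            _ = a⁻¹ * u := by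
              rw [mul_inv_rev, inv_eq_of_mul_eq_one_right hu2, ← mul_assoc, hu2, one_mul] }
  have hun : u ∉ zpowers s := fun h => by
    have := Subgroup.orderOf_dvd_natCard _ h
    rw [Nat.card_zpowers, hso, hu] at this
    norm_num at this
  have hexcl : ∀ g, g ∈ zpowers s → g * u ∈ zpowers s → False := fun g h1 h2 => by
    have := mul_mem (inv_mem h1) h2
    rw [inv_mul_cancel_left] at this
    exact hun this
  let E : zpowers s ⊕ zpowers s ≃ D := Equiv.ofBijective
    (Sum.elim (fun w => ⟨(w : M), Or.inl w.2⟩)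
      (fun w => ⟨(w : M) * u, Or.inr (by rw [mul_assoc, hu2, mul_one]; exact w.2)⟩)) <| by
    constructor
    · rintro (a | a) (b | b) h <;> have h' := congrArg Subtype.val h <;> simp only [Sum.elim_inl, Sum.elim_inr] at h'
      · exact congrArg Sum.inl (Subtype.ext h')
      · exact (hexcl _ b.2 (h' ▸ a.2)).elim
      · exact (hexcl _ a.2 (h'.symm ▸ b.2)).elim
      · exact congrArg Sum.inr (Subtype.ext (mul_right_cancel h'))
    · rintro ⟨g, hg | hg⟩
      · exact ⟨Sum.inl ⟨g, hg⟩, rfl⟩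
      · exact ⟨Sum.inr ⟨g * u, hg⟩, Subtype.ext (by show g * u * u = g; rw [mul_assoc, hu2, mul_one])⟩
  obtain ⟨m, hm⟩ := exists_nat_sum (IsIrrCharacter.isCharacter ch.χ6.2) D
  have hc3 : Nat.card (zpowers s) = 3 := by rw [Nat.card_zpowers, hso]
  have hcardD : Nat.card D = 6 := by rw [← Nat.card_congr E, Nat.card_sum, hc3]
  have hinv : ∀ w : zpowers s, (ch.χ6 : M → ℂ) ((w : M) * u) = -2 := by
    intro w
    refine (ch.inv _ (CfsgLib.Involutions.orderOf_eq_two_iff.2 ⟨?_, fun h => ?_⟩)).1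
    · obtain ⟨k, hk⟩ := w.2
      have e : (w : M) * u * (w * u) = w * (u * w * u⁻¹) * (u * u) := by group
      rw [e, hu2, mul_one, ← hk]
      show s ^ k * (u * s ^ k * u⁻¹) = 1
      rw [← conj_zpow, hus, inv_zpow, mul_inv_cancel]
    · exact hexcl _ w.2 (h ▸ one_mem _)
  rw [← E.sum_comp, Fintype.sum_sum_type, hcardD] at hm
  change (∑ w : zpowers s, (ch.χ6 : M → ℂ) w) + (∑ w : zpowers s, (ch.χ6 : M → ℂ) ((w : M) * u)) = _ at hm
  have hs2 : (ch.χ6 : M → ℂ) (s ^ 2) = A := by
    rw [← hA]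
    refine irr_apply_eq_of_isConj (IsConj.symm (isConj_iff.2 ⟨u, ?_⟩)) ch.χ6
    rw [hus, inv_eq_of_mul_eq_one_right (b := s ^ 2) (by rw [← pow_succ']; exact hs)]
  rw [Finset.sum_congr rfl fun w _ => hinv w, Finset.sum_const, Finset.card_univ, ← Nat.card_eq_fintype_card, hc3,
    ← (finEquivZPowers (isOfFinOrder_of_finite s)).sum_comp, ← (finCongr hso.symm).sum_comp, Fin.sum_univ_three] at hm
  simp only [finEquivZPowers_apply, finCongr_apply, Fin.val_cast, Fin.val_zero, Fin.val_one, Fin.val_two,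
    pow_zero, pow_one, ch.deg6, hA, hs2] at hm
  have e : 2 * A = 6 * (m : ℤ) := by
    apply Int.cast_injective (α := ℂ); push_cast
    simp only [nsmul_eq_mul] at hm
    push_cast at hm
    linear_combination hm
  -- the bound
  obtain ⟨d, l, hd, hval, hl, -, -⟩ :=
    exists_roots_det (IsIrrCharacter.isCharacter ch.χ6.2) three_ne_zero hs fun f => lin_trivial hM f s
  have hd6 : d = 6 := by rw [ch.deg6] at hd; exact_mod_cast hd.symm
  have hle : (A : ℝ) ≤ 6 := by
    have h := congrArg Complex.re hval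
    rw [hA, Complex.re_sum] at h
    simp only [Complex.intCast_re] at h
    rw [h]
    calc ∑ i, (l i).re ≤ ∑ _i : Fin d, (1 : ℝ) := Finset.sum_le_sum fun i _ =>
          le_trans (Complex.re_le_norm _) (le_of_eq (Complex.norm_eq_one_of_pow_eq_one (hl i) three_ne_zero))
      _ = 6 := by simp [hd6]
  have hle' : A ≤ 6 := by exact_mod_cast hle
  have hne : A ≠ 6 := fun h => hs1 (eq_one_of_apply_eq ch.χ6 ch.ne6 (by rw [hA, h, ch.deg6]; norm_num))
  rcases (show A = 0 ∨ A = 3 by omega) with h | h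
  · exact Or.inl (by rw [hA, h]; norm_num)
  · exact Or.inr (by rw [hA, h]; norm_num)

include hM in
/-- The elements of a subgroup of order 27 and exponent 3 are not all inverted by involutions. -/
theorem not_all_inverted {S : Subgroup M} (hS : Nat.card S = 27) (hexp : ∀ s ∈ S, s ^ 3 = 1)
    (hall : ∀ s ∈ S, s ≠ 1 → ∃ u : M, orderOf u = 2 ∧ u * s * u⁻¹ = s⁻¹) : False := by
  classical
  have hsq : ∀ s : S, s ≠ 1 → (ch.χ6 : M → ℂ) s * (ch.χ6 : M → ℂ) s = 3 * (ch.χ6 : M → ℂ) s := by
    intro s hs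
    have hs' : (s : M) ≠ 1 := fun h => hs (Subtype.ext h)
    obtain ⟨u, hu, hus⟩ := hall s s.2 hs'
    rcases value_inverted ch hM (hexp s s.2) hs' hu hus with h | h <;> rw [h] <;> norm_num
  obtain ⟨m, hm⟩ := exists_nat_sum (IsIrrCharacter.isCharacter ch.χ6.2) S
  obtain ⟨n, hn⟩ := exists_nat_sum_sq (IsIrrCharacter.isCharacter ch.χ6.2) S
  have key : ∑ s : S, (ch.χ6 : M → ℂ) s * (ch.χ6 : M → ℂ) s = 3 * (∑ s : S, (ch.χ6 : M → ℂ) s) + 18 := by
    have h : ∀ s : S, (ch.χ6 : M → ℂ) s * (ch.χ6 : M → ℂ) s =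
        3 * (ch.χ6 : M → ℂ) s + if s = 1 then 18 else 0 := fun s => by
      split_ifs with h
      · rw [h, OneMemClass.coe_one, ch.deg6]; norm_num
      · rw [hsq s h, add_zero]
    rw [Finset.sum_congr rfl fun s _ => h s, Finset.sum_add_distrib, ← Finset.mul_sum, Finset.sum_ite_eq']
    simp
  rw [hn, hm, hS] at key
  have : 27 * n = 3 * (27 * m) + 18 := by
    apply Nat.cast_injective (R := ℂ); push_cast; linear_combination key
  omega

omit [IsSimpleGroup M] in
/-- A subgroup of order 9 generated by `c`, `w`: the sum of the values. -/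
theorem sum_nine {c w : M} (hc : c ^ 3 = 1) (hw : w ^ 3 = 1) (hcw : Commute c w) :
    ∃ m : ℕ, (ch.χ6 : M → ℂ) 1 + (ch.χ6 : M → ℂ) c + (ch.χ6 : M → ℂ) (c ^ 2) + (ch.χ6 : M → ℂ) w +
        (ch.χ6 : M → ℂ) (c * w) + (ch.χ6 : M → ℂ) (c ^ 2 * w) + (ch.χ6 : M → ℂ) (w ^ 2) +
        (ch.χ6 : M → ℂ) (c * w ^ 2) + (ch.χ6 : M → ℂ) (c ^ 2 * w ^ 2) = 9 * (m : ℂ) := by
  classical
  let γ : ∀ x : M, x ^ 3 = 1 → Multiplicative (ZMod 3) →* M := fun x hx =>
    { toFun := fun k => x ^ (Multiplicative.toAdd k).val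
      map_one' := by simp
      map_mul' := fun a b => by
        rw [toAdd_mul, ZMod.val_add, ← pow_add, ← pow_mod_orderOf, Nat.mod_mod_of_dvd _
          (orderOf_dvd_of_pow_eq_one hx), pow_mod_orderOf] }
  set φ := MonoidHom.noncommCoprod (γ c hc) (γ w hw) (fun a b => (hcw.pow_left _).pow_right _)
  let ψ : ULift.{u} (Multiplicative (ZMod 3) × Multiplicative (ZMod 3)) →* M :=
    φ.comp MulEquiv.ulift.toMonoidHom
  obtain ⟨m, hm⟩ := exists_nat_sum_hom (IsIrrCharacter.isCharacter ch.χ6.2) ψ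
  rw [← Equiv.ulift.symm.sum_comp, Nat.card_ulift, Nat.card_prod, Nat.card_eq_fintype_card, Fintype.card_multiplicative,
    ZMod.card, Fintype.sum_prod_type, ← Multiplicative.ofAdd.sum_comp] at hm
  simp only [← Multiplicative.ofAdd.sum_comp (g := fun y : Multiplicative (ZMod 3) => (ch.χ6 : M → ℂ) (ψ _))] at hm
  change ∑ i : Fin 3, ∑ j : Fin 3, (ch.χ6 : M → ℂ) (c ^ (i : ℕ) * w ^ (j : ℕ)) = _ at hm
  rw [Fin.sum_univ_three, Fin.sum_univ_three, Fin.sum_univ_three, Fin.sum_univ_three] at hm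
  simp only [Fin.val_zero, Fin.val_one, Fin.val_two, pow_zero, pow_one, one_mul, mul_one] at hm
  refine ⟨m, ?_⟩
  push_cast at hm
  linear_combination hm

end CfsgLib.GTwoTwo
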